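import Cfsg.Agent.H60.SULow.Mono

set_option autoImplicit false
set_option linter.unusedSectionVars false

/-!
Overgroups of the monomial subgroup of `SU(3, q)`: an element fixing an axis is monomial, and no mixed element has
a zero entry.
-/

namespace Cfsg.Agent.H2.SU3

open scoped Matrix Classical
open Cfsg.Agent.H98 Cfsg.Agent.H3 Cfsg.Agent.H60.SULow

variable {F : Type*} [Field F] [Fintype F] {q : ℕ}

local notation "Mat" => Matrix (Fin 3) (Fin 3) F
local notation "h" => Cfsg.hermForm 3 F q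
local notation "G₁" => Cfsg.GU 3 F q ⊓ Cfsg.Geo.specialLinear (Fin 3) F

/-- The monomial elements of `SU` lie in the subgroup. -/
def HasMono (q : ℕ) (M : Subgroup (GL (Fin 3) F)) : Prop :=
  ∀ m ∈ Cfsg.GU 3 F q ⊓ Cfsg.Geo.specialLinear (Fin 3) F, IsMonom m → m ∈ M

theorem exists_third : ∀ a b : Fin 3, a ≠ b → ∃ c : Fin 3, c ≠ a ∧ c ≠ b := by decide

theorem fin3_cases : ∀ a b c l : Fin 3, a ≠ b → c ≠ a → c ≠ b → l = a ∨ l = b ∨ l = c := by decide

theorem herm3 {a b c : Fin 3} (hab : a ≠ b) (hca : c ≠ a) (hcb : c ≠ b) (u v : Fin 3 → F) :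
    h u v = u a * v a ^ q + u b * v b ^ q + u c * v c ^ q := by
  have hu : (Finset.univ : Finset (Fin 3)) = {a, b, c} := by
    refine (Finset.eq_univ_iff_forall.mpr fun l => ?_).symm
    rcases fin3_cases a b c l hab hca hcb with rfl | rfl | rfl <;> simp
  rw [Cfsg.hermForm, hu, Finset.sum_insert (by simp [hab, hca.symm]), Finset.sum_insert (by simp [hcb.symm]),
    Finset.sum_singleton, add_assoc]

variable (hF : Fintype.card F = q ^ 2)
include hF

theorem q_ne_zero' : q ≠ 0 := by have := two_le_q hF; omega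

theorem norm_one_ne_zero {a : F} (ha : a ^ (q + 1) = 1) : a ≠ 0 := fun h0 => by
  rw [h0, zero_pow (Nat.succ_ne_zero q)] at ha
  exact zero_ne_one ha

theorem norm_one_mul {a b : F} (ha : a ^ (q + 1) = 1) (hb : b ^ (q + 1) = 1) : (a * b) ^ (q + 1) = 1 := by
  rw [mul_pow, ha, hb, one_mul]

theorem norm_one_inv {a : F} (ha : a ^ (q + 1) = 1) : a⁻¹ ^ (q + 1) = 1 := by rw [inv_pow, ha, inv_one]

/-- `SU(3, q)`, `q ≥ 3`, is generated by its transvections. -/
theorem su_le_of_uT₃ (hq : 3 ≤ q) {M : Subgroup (GL (Fin 3) F)}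
    (hall : ∀ v, ∀ hv : h v v = 0, ∀ d, Herm.frobQ hF d = -d → Herm.uT (Herm.isUnitary_std (n := 3) hF) hv d ∈ M) :
    G₁ ≤ M := by
  rintro g ⟨hg, hdet⟩
  have hker : (⟨g, hg⟩ : Cfsg.GU 3 F q) ∈ (guDet 3 F q).ker := MonoidHom.mem_ker.mp hdet
  have hle : transGroup 3 F q ≤ M.comap (Cfsg.GU 3 F q).subtype := by
    refine (Subgroup.closure_le _).2 ?_
    rintro s ⟨v, c, hv, hs⟩
    change (s : GL (Fin 3) F) ∈ M
    rcases eq_or_ne v 0 with rfl | hv0
    · convert M.one_mem using 1
      refine gl_ext fun x => ?_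
      change (s.1 : Mat) *ᵥ x = _
      rw [hs, unitaryTransvection_mulVec]; simp
    have hc : c + c ^ q = 0 := trace_zero_of_transvection_preserves hF hv0 hv fun x y => by
      rw [← hs]; exact s.2 x y
    convert hall v hv c (by rw [Herm.frobQ_apply]; linear_combination hc) using 1
    refine gl_ext fun x => ?_
    change (s.1 : Mat) *ᵥ x = _
    rw [hs, unitaryTransvection_mulVec, Herm.uT_mulVec]
  exact hle (ker_le_transGroup hF (by norm_num) (fun e => by omega) hker)

/-- Two full coordinate lines of centres give everything. -/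
theorem su_le_of_planes (hq : 3 ≤ q) {M : Subgroup (GL (Fin 3) F)} (hMK : M ≤ G₁) {a b c : Fin 3} (hab : a ≠ b)
    (hca : c ≠ a) (hcb : c ≠ b)
    (hW : ∀ i j : Fin 3, i ≠ j → ∀ x y : F, x ^ (q + 1) + y ^ (q + 1) = 0 →
      (x • Pi.single i 1 + y • Pi.single j 1 : Fin 3 → F) ∈ Herm.centres (Herm.isUnitary_std (n := 3) hF) M) :
    G₁ ≤ M := by
  have hf := Herm.isUnitary_std (n := 3) hF
  have hq0 : q ≠ 0 := q_ne_zero' hF
  have hiso : ∀ m ∈ M, ∀ x y, h ((m : Mat) *ᵥ x) ((m : Mat) *ᵥ y) = h x y := fun m hm => (hMK hm).1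
  refine su_le_of_uT₃ hF hq fun v hv d hd => ?_
  suffices hvc : v ∈ Herm.centres hf M by
    obtain ⟨_, hv'⟩ := hvc
    exact hv' d hd
  rcases eq_or_ne v 0 with rfl | hv0
  · simpa using hW a b hab 0 0 (by simp)
  obtain ⟨μ, hμ⟩ := exists_norm_eq hF (μ := (-1 : F)) (by rw [← conjQ_apply hF, map_neg, map_one])
  have hμ0 : μ ≠ 0 := fun e => by rw [e, zero_pow (Nat.succ_ne_zero q)] at hμ; simp at hμ
  set u : Fin 3 → F := (1 : F) • Pi.single a 1 + μ • Pi.single b 1 with hu
  have huC : u ∈ Herm.centres hf M := hW a b hab 1 μ (by rw [one_pow, hμ, add_neg_cancel])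
  obtain ⟨huu, hut⟩ := huC
  obtain ⟨a₀, c₀, ha₀, hc₀, hac₀⟩ : ∃ a₀ c₀, v a₀ ≠ 0 ∧ v c₀ ≠ 0 ∧ a₀ ≠ c₀ := by
    by_contra hc'
    push Not at hc'
    obtain ⟨l, hl⟩ := Function.ne_iff.mp hv0
    obtain ⟨l', hl'⟩ : ∃ l', l ≠ l' := by
      by_cases e : l = a
      · exact ⟨b, e ▸ hab⟩
      · exact ⟨a, e⟩
    obtain ⟨l'', h1, h2⟩ := exists_third l l' hl'
    rw [herm3 hl' h1 h2] at hv
    have e1 : v l' = 0 := by_contra fun e => hl' (hc' l l' hl e)
    have e2 : v l'' = 0 := by_contra fun e => h1 (hc' l l'' hl e).symm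
    rw [e1, e2] at hv
    simp only [zero_mul, add_zero] at hv
    rw [← pow_succ'] at hv
    exact hl (eq_zero_of_pow_eq_zero hv)
  obtain ⟨b₀, hb₀a, hb₀c⟩ := exists_third a₀ c₀ hac₀
  -- the centres on the lines joining `u` to the other plane
  let S : Type _ := {ν : F // ν ^ (q + 1) = -1} × {d : F // Herm.frobQ hF d = -d}
  let w : F → (Fin 3 → F) := fun ν => (1 : F) • Pi.single b 1 + ν • Pi.single c 1
  let X : S → (Fin 3 → F) := fun s => (Herm.uT hf huu s.2.1 : Mat) *ᵥ w s.1.1
  have hwb : ∀ ν, w ν b = 1 ∧ w ν a = 0 ∧ w ν c = ν := fun ν => by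
    simp [w, Pi.single_apply, hab, hab.symm, hca, hca.symm, hcb, hcb.symm]
  have hhw : ∀ ν, h (w ν) u = μ ^ q := fun ν => by
    obtain ⟨e1, e2, e3⟩ := hwb ν
    rw [herm3 hab hca hcb, e1, e2, e3]
    simp [u, Pi.single_apply, hab.symm, hca, hcb, zero_pow hq0]
  have hXcoord : ∀ s, X s a = s.2.1 * μ ^ q ∧ X s b = 1 + s.2.1 * μ ^ q * μ ∧ X s c = s.1.1 := fun s => by
    obtain ⟨e1, e2, e3⟩ := hwb s.1.1
    simp only [X, Herm.uT_mulVec, hhw, Pi.add_apply, Pi.smul_apply, smul_eq_mul, e1, e2, e3]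
    refine ⟨?_, ?_, ?_⟩ <;> simp [u, Pi.single_apply, hab, hab.symm, hca, hcb]
  have hXC : ∀ s, X s ∈ Herm.centres hf M := fun s =>
    Herm.centres_conj hf hiso (hut _ s.2.2) (hW b c hcb.symm 1 s.1.1 (by rw [one_pow, s.1.2, add_neg_cancel]))
  have hinj : ∀ s s' : S, ∀ ρ : F, X s' = ρ • X s → s = s' := by
    intro s s' ρ e
    obtain ⟨x1, x2, x3⟩ := hXcoord s
    obtain ⟨y1, y2, y3⟩ := hXcoord s'
    have ea := congrFun e a
    have eb := congrFun e b
    have ec := congrFun e c
    rw [Pi.smul_apply, smul_eq_mul, x1, y1] at ea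
    rw [Pi.smul_apply, smul_eq_mul, x2, y2] at eb
    rw [Pi.smul_apply, smul_eq_mul, x3, y3] at ec
    have hρ : ρ = 1 := by linear_combination μ * ea - eb
    rw [hρ, one_mul] at ea ec
    exact Prod.ext (Subtype.ext ec.symm) (Subtype.ext (mul_right_cancel₀ (pow_ne_zero q hμ0) ea.symm))
  by_cases hperp : ∃ s, h (X s) v = 0
  · obtain ⟨s, hs⟩ := hperp
    have hX0 : X s ≠ 0 := fun e => norm_one_ne_zero hF (one_pow (q + 1)) (by
      have := congrArg (fun z => ((Herm.uT hf huu s.2.1)⁻¹ : GL (Fin 3) F).1 *ᵥ z) e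
      simp only [X, gl_inv_mulVec, Matrix.mulVec_zero] at this
      have e1 := congrFun this b
      rwa [(hwb _).1] at e1)
    obtain ⟨k, hk⟩ : ∃ k : F, v = k • X s := by
      by_contra hne
      push Not at hne
      have hli : LinearIndependent F ![X s, v] :=
        (LinearIndependent.pair_iff' hX0).mpr fun k => (hne k).symm
      have h2 := Herm.ti_bound hf (Submodule.span F (Set.range ![X s, v])) (by
        have hgen : ∀ x ∈ Set.range ![X s, v], ∀ y ∈ Set.range ![X s, v], h x y = 0 := by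
          rintro _ ⟨i, rfl⟩ _ ⟨j, rfl⟩
          fin_cases i <;> fin_cases j <;>
            simp [(hXC s).1, hv, hs, (Herm.eq_zero_comm hf).mp hs]
        intro x hx y hy
        induction hx using Submodule.span_induction with
        | mem x hx =>
          induction hy using Submodule.span_induction with
          | mem y hy => exact hgen x hx y hy
          | zero => exact hermForm_zero_right hF _
          | add y y' _ _ i1 i2 => rw [hermForm_add_right hF, i1, i2, add_zero]
          | smul k y _ i1 => rw [hermForm_smul_right hF, i1, mul_zero]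
        | zero => exact hermForm_zero_left hF _
        | add x x' _ _ i1 i2 => rw [hermForm_add_left hF, i1, i2, add_zero]
        | smul k x _ i1 => rw [hermForm_smul_left hF, i1, mul_zero])
      rw [finrank_span_eq_card hli, Fintype.card_fin, Fintype.card_fin] at h2
      omega
    rw [hk]; exact Herm.centres_smul hf (hXC s) k
  push Not at hperp
  -- pigeonhole on the lines through `v`
  let φ : S → F := fun s => (X s b₀ - X s a₀ * v b₀ / v a₀) / h (X s) v
  have hcard : Fintype.card F < Fintype.card S := by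
    rw [Fintype.card_prod, hF, ← Nat.card_eq_fintype_card, ← Nat.card_eq_fintype_card,
      card_norm_eq hF (neg_ne_zero.mpr one_ne_zero) (by rw [← conjQ_apply hF, map_neg, map_one])]
    have e : Nat.card {d : F // Herm.frobQ hF d = -d} = q := by
      refine Eq.trans ?_ (twist_surj_and_card hF (1 : F) (Or.inl rfl)).2
      exact Nat.card_congr (Equiv.subtypeEquivRight fun x => by
        rw [Herm.frobQ_apply, one_mul, eq_neg_iff_add_eq_zero, add_comm])
    rw [e, pow_two]
    exact Nat.mul_lt_mul_of_pos_right (Nat.lt_succ_self q) (by omega)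
  obtain ⟨s, s', hne, he⟩ := Fintype.exists_ne_map_eq_of_card_lt φ hcard
  set x := (h (X s) v)⁻¹ • X s with hx
  set x' := (h (X s') v)⁻¹ • X s' with hx'
  set D : Fin 3 → F := x - x' - ((x a₀ - x' a₀) / v a₀) • v with hD
  have hDa : D a₀ = 0 := by simp [hD, ha₀]
  have hDb : D b₀ = 0 := by
    have : φ s - φ s' = 0 := sub_eq_zero.mpr he
    simp only [φ] at this
    rw [← this, hD, hx, hx']
    simp only [Pi.sub_apply, Pi.smul_apply, smul_eq_mul]
    ring
  have hDv : h D v = 0 := by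
    rw [hD, hx, hx', hermForm_sub_left hF, hermForm_sub_left hF, hermForm_smul_left hF, hermForm_smul_left hF,
      hermForm_smul_left hF, inv_mul_cancel₀ (hperp s), inv_mul_cancel₀ (hperp s'), hv, mul_zero, sub_self, sub_zero]
  rw [herm3 hb₀a.symm hac₀.symm hb₀c.symm, hDa, hDb, zero_mul, zero_mul, zero_add, zero_add] at hDv
  have hDc : D c₀ = 0 := (mul_eq_zero.mp hDv).resolve_right (pow_ne_zero q hc₀)
  have hD0 : D = 0 := by
    funext l
    rcases fin3_cases a₀ c₀ b₀ l hac₀ hb₀a hb₀c with rfl | rfl | rfl <;> assumption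
  set β := (x a₀ - x' a₀) / v a₀ with hβ
  have hdiff : x - x' = β • v := sub_eq_zero.mp hD0
  have hβ0 : β ≠ 0 := fun e => hne (hinj s s' ((h (X s') v) * (h (X s) v)⁻¹) (by
    rw [e, zero_smul, sub_eq_zero, hx, hx'] at hdiff
    rw [mul_smul, hdiff, smul_smul, mul_inv_cancel₀ (hperp s'), one_smul]))
  have hxx : h x x' ≠ 0 := by
    intro e
    have : h x (x - x') = 0 := by
      rw [hermForm_sub_right hF, e, hx, hermForm_smul_left hF, hermForm_smul_right hF, (hXC s).1]; ring
    rw [hdiff, hermForm_smul_right hF, hx, hermForm_smul_left hF, inv_mul_cancel₀ (hperp s), mul_one] at this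
    exact pow_ne_zero q hβ0 this
  have hveq : v = β⁻¹ • x + (-β⁻¹) • x' := by
    rw [neg_smul, ← sub_eq_add_neg, ← smul_sub, hdiff, smul_smul, inv_mul_cancel₀ hβ0, one_smul]
  rw [hveq]
  exact Herm.centres_pair hf hiso (Herm.centres_smul hf (hXC s) _) (Herm.centres_smul hf (hXC s') _) hxx
    (by rw [← hveq]; exact hv)

variable {M : Subgroup (GL (Fin 3) F)}

/-- A mixed element fixing an axis gives everything. -/
theorem spreading_or_top (hq : 3 ≤ q) (hMK : M ≤ G₁) (hdiag : HasDiag q M) (hmono : HasMono q M) (hno : ¬ G₁ ≤ M) :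
    Spreading M := by
  have hperm : ∀ π : Equiv.Perm (Fin 3), ∃ m ∈ M, ∃ s : Fin 3 → F, (∀ l, s l ^ (q + 1) = 1) ∧
      ∀ v : Fin 3 → F, ((m : GL (Fin 3) F) : Mat) *ᵥ v = fun l => s l * v (π.symm l) := fun π => by
    obtain ⟨m, hm, s, hs, hmv⟩ := exists_mono hF π 0
    exact ⟨m, hmono m hm (isMonom_of_mono hmv), s, hs, hmv⟩
  have key : ∀ y ∈ M, ∀ (c a : Fin 3) (ρ : F), ((y : GL (Fin 3) F) : Mat) *ᵥ Pi.single c 1 = ρ • Pi.single c 1 →
      IsAxis ((y : Mat) *ᵥ Pi.single a 1) := by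
    intro y hy c a ρ hyc
    by_contra hya
    apply hno
    have hac : a ≠ c := fun e => hya (by rw [e, hyc]; exact isAxis_smul_single ρ c)
    obtain ⟨i, j, hij, hW⟩ := exists_plane_low hF hq hMK hdiag _ c _
      (inO_conj hF hMK (inO_single hF hdiag hac) hy hyc) hya le_rfl
    refine su_le_of_planes hF hq hMK (a := 0) (b := 1) (c := 2) (by decide) (by decide) (by decide)
      fun i' j' hij' a' b' hab => ?_
    let π : Equiv.Perm (Fin 3) := Equiv.swap (Equiv.swap i i' j) j' * Equiv.swap i i'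
    have hπi : π i = i' := by
      simp only [π, Equiv.Perm.mul_apply, Equiv.swap_apply_left]
      refine Equiv.swap_apply_of_ne_of_ne (fun e => hij ?_) hij'
      have := congrArg (Equiv.swap i i') e
      rwa [Equiv.swap_apply_self, Equiv.swap_apply_right] at this
    have hπj : π j = j' := by simp [π]
    obtain ⟨m, hm, s, hs, hmv⟩ := hperm π
    have h1 := Herm.centres_conj (Herm.isUnitary_std (n := 3) hF) (fun g hg => (hMK hg).1) hm
      (hW (a' / s i') (b' / s j') (by rw [div_pow, div_pow, hs, hs, div_one, div_one]; exact hab))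
    convert h1 using 1
    rw [hmv]
    funext l
    have hli : π.symm l = i ↔ l = i' := by rw [Equiv.symm_apply_eq, hπi]
    have hlj : π.symm l = j ↔ l = j' := by rw [Equiv.symm_apply_eq, hπj]
    by_cases h2 : l = i'
    · subst h2
      simp [hli.mpr rfl, hij, hij', mul_div_cancel₀ _ (norm_one_ne_zero hF (hs l))]
    by_cases h3 : l = j'
    · subst h3
      simp [hlj.mpr rfl, hij.symm, h2, mul_div_cancel₀ _ (norm_one_ne_zero hF (hs l))]
    simp [h2, h3, mt hli.mp h2, mt hlj.mp h3]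
  intro m hm c hc a
  obtain ⟨l, ρ, -, hl⟩ := exists_axis hc (gl_single_ne_zero m c)
  obtain ⟨P, hP, s, hs, hPv⟩ := hperm (Equiv.swap c l)
  have h1 := key (P * m) (M.mul_mem hP hm) c a (s c * ρ) (by
    rw [Units.val_mul, ← Matrix.mulVec_mulVec, hl, hPv]
    funext o
    by_cases ho : o = c
    · subst ho; simp
    · have : (Equiv.swap c l) o ≠ l := fun e => ho (by
        have := congrArg (Equiv.swap c l) e
        rwa [Equiv.swap_apply_self, Equiv.swap_apply_right] at this)
      simp [ho, this])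
  intro i j hi hj
  refine (Equiv.swap c l).injective (h1 _ _ ?_ ?_) <;>
    rw [Units.val_mul, ← Matrix.mulVec_mulVec, hPv] <;>
    simp only [Equiv.symm_swap, Equiv.swap_apply_self]
  · exact mul_ne_zero (norm_one_ne_zero hF (hs _)) hi
  · exact mul_ne_zero (norm_one_ne_zero hF (hs _)) hj

/-- Two norm-one scalars with distinct non-trivial cubes. -/
theorem exists_cubes (hq : 3 ≤ q) (h5 : q ≠ 5) :
    ∃ η η' : F, η ^ (q + 1) = 1 ∧ η' ^ (q + 1) = 1 ∧ η ^ 3 ≠ 1 ∧ η' ^ 3 ≠ 1 ∧ η ^ 3 ≠ η' ^ 3 := by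
  have hcard : (normOne q F).card = q + 1 := card_normOne hF
  have hroots : ∀ c : F, ((normOne q F).filter fun a => a ^ 3 = c).card ≤ 3 := fun c => by
    refine le_trans (Finset.card_le_card fun a ha => ?_) (le_trans (Multiset.toFinset_card_le _)
      (Polynomial.card_nthRoots 3 c))
    rw [Multiset.mem_toFinset, Polynomial.mem_nthRoots (by norm_num)]
    exact (Finset.mem_filter.mp ha).2
  by_contra hall
  push Not at hall
  by_cases hex : ∃ η : F, η ^ (q + 1) = 1 ∧ η ^ 3 ≠ 1
  · obtain ⟨η, hη, hη1⟩ := hex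
    have hsub : normOne q F ⊆ ((normOne q F).filter fun a => a ^ 3 = 1) ∪ (normOne q F).filter fun a => a ^ 3 = η ^ 3 := by
      intro a ha
      rw [Finset.mem_union, Finset.mem_filter, Finset.mem_filter]
      by_cases h1 : a ^ 3 = 1
      · exact Or.inl ⟨ha, h1⟩
      · exact Or.inr ⟨ha, (hall η a hη (mem_normOne.mp ha) hη1 h1).symm⟩
    have h6 := (Finset.card_le_card hsub).trans
      ((Finset.card_union_le _ _).trans (Nat.add_le_add (hroots 1) (hroots (η ^ 3))))
    rw [hcard] at h6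
    -- the cube map is injective for `q = 3, 4`
    have hinj : ∀ a b : F, a ^ (q + 1) = 1 → b ^ (q + 1) = 1 → a ^ 3 = b ^ 3 → a = b := fun a b ha hb e => by
      have hb0 := norm_one_ne_zero hF hb
      have h1 : (a / b) ^ 3 = 1 := by rw [div_pow, e, div_self (pow_ne_zero 3 hb0)]
      have h2 : (a / b) ^ (q + 1) = 1 := by rw [div_pow, ha, hb, div_one]
      have h3 := pow_gcd_eq_one.mpr ⟨h1, h2⟩
      have hg : Nat.gcd 3 (q + 1) = 1 := by
        rcases (show q = 3 ∨ q = 4 by omega) with rfl | rfl <;> rfl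
      rw [hg, pow_one, div_eq_one_iff_eq hb0] at h3
      exact h3
    have h2 : normOne q F ⊆ ({1, η} : Finset F) := fun a ha => by
      have hmem := mem_normOne.mp ha
      simp only [Finset.mem_insert, Finset.mem_singleton]
      by_cases h1 : a ^ 3 = 1
      · exact Or.inl (hinj a 1 hmem (one_pow _) (by rw [h1, one_pow]))
      · exact Or.inr (hinj a η hmem hη (hall η a hη hmem hη1 h1).symm)
    have := (Finset.card_le_card h2).trans Finset.card_le_two
    omega
  · push Not at hex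
    have h3 := (Finset.card_le_card (s := normOne q F) fun a ha =>
      Finset.mem_filter.mpr ⟨ha, hex a (mem_normOne.mp ha)⟩).trans (hroots 1)
    omega

/-- No mixed element has a zero entry. -/
theorem no_zero (hq : 3 ≤ q) (h5 : q ≠ 5) (hMK : M ≤ G₁) (hdiag : HasDiag q M) (hspread : Spreading M)
    {g : GL (Fin 3) F} (hg : g ∈ M) {c d : Fin 3} (hcd : ((g : Mat) *ᵥ Pi.single d 1) c = 0) : IsMonom g := by
  by_contra hgm
  have hq0 : q ≠ 0 := q_ne_zero' hF
  set r := (g : Mat) *ᵥ Pi.single d 1 with hr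
  have hax : ¬ IsAxis r := fun hh => hgm (hspread g hg d hh)
  obtain ⟨p, o, hp, ho, hpo⟩ : ∃ p o, r p ≠ 0 ∧ r o ≠ 0 ∧ p ≠ o := by
    unfold IsAxis at hax
    push Not at hax
    exact hax
  -- each admissible homology forces the same value
  have key : ∀ η : F, η ^ (q + 1) = 1 → η ^ 3 ≠ 1 → 1 + ((η⁻¹) ^ 3 - 1) * (r p ^ q * r p) = 0 := by
    intro η hη hη3
    have hη0 := norm_one_ne_zero hF hη
    set θ := (η⁻¹) ^ 3 with hθ
    have hθ1 : θ ≠ 1 := fun e => hη3 (by rwa [hθ, inv_pow, inv_eq_one] at e)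
    let δ : Fin 3 → F := fun l => η * if l = d then θ else 1
    have hδ : ∀ l, δ l ^ (q + 1) = 1 := fun l => by
      simp only [δ, mul_pow, hη, one_mul]
      split_ifs
      · rw [hθ, ← pow_mul, mul_comm 3, pow_mul, norm_one_inv hF hη, one_pow]
      · exact one_pow _
    have hδp : ∏ l, δ l = 1 := by
      simp only [δ, Finset.prod_mul_distrib, Finset.prod_const, Finset.card_univ, Fintype.card_fin,
        Finset.prod_ite_eq', Finset.mem_univ, if_true, hθ, ← mul_pow, mul_inv_cancel₀ hη0, one_pow]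
    set y := g * (guDiag (q := q) δ hδ).1 * g⁻¹ with hy
    have hyM : y ∈ M := M.mul_mem (M.mul_mem hg (hdiag δ hδ hδp)) (M.inv_mem hg)
    have hyv : ∀ v, (y : Mat) *ᵥ v = η • v + (η * (θ - 1) * h v r) • r := fun v => by
      have e : ∀ w, ((guDiag (q := q) δ hδ).1 : Mat) *ᵥ w = η • w + (η * (θ - 1) * w d) • Pi.single d 1 := fun w => by
        ext l
        by_cases h1 : l = d
        · subst h1; simp [guDiag, Matrix.mulVec_diagonal, δ]; ring
        · simp [guDiag, Matrix.mulVec_diagonal, δ, h1]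
      rw [hy, Units.val_mul, Units.val_mul, ← Matrix.mulVec_mulVec, ← Matrix.mulVec_mulVec, e, Matrix.mulVec_add,
        Matrix.mulVec_smul, Matrix.mulVec_smul, gl_mulVec_inv, hr, herm_image hF (hMK hg).1]
    have hmon : IsMonom y := hspread y hyM c (by
      rw [hyv, hermForm_single_left, hcd, zero_pow hq0]
      simpa using isAxis_smul_single η c)
    have hyo : ((y : Mat) *ᵥ Pi.single p 1) o ≠ 0 := by
      rw [hyv, hermForm_single_left, one_mul]
      simp only [Pi.add_apply, Pi.smul_apply, Pi.single_eq_of_ne hpo.symm, smul_eq_mul, mul_zero, zero_add]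
      exact mul_ne_zero (mul_ne_zero (mul_ne_zero hη0 (sub_ne_zero.mpr hθ1)) (pow_ne_zero q hp)) ho
    have hyp : ((y : Mat) *ᵥ Pi.single p 1) p = 0 := by_contra fun e => hpo (hmon p p o e hyo)
    rw [hyv, hermForm_single_left, one_mul] at hyp
    simp only [Pi.add_apply, Pi.smul_apply, Pi.single_eq_same, smul_eq_mul, mul_one] at hyp
    refine (mul_eq_zero.mp (show η * (1 + (θ - 1) * (r p ^ q * r p)) = 0 by linear_combination hyp)).resolve_left hη0
  obtain ⟨η, η', hη, hη', h1, h1', hne⟩ := exists_cubes hF hq h5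
  refine hne ?_
  have e : ((η⁻¹) ^ 3 - (η'⁻¹) ^ 3) * (r p ^ q * r p) = 0 := by linear_combination key η hη h1 - key η' hη' h1'
  have e2 := sub_eq_zero.mp ((mul_eq_zero.mp e).resolve_right (mul_ne_zero (pow_ne_zero q hp) hp))
  rwa [inv_pow, inv_pow, inv_inj] at e2

end Cfsg.Agent.H2.SU3
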