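import Cfsg.Agent.H2.SU3.MonoRefl
import Mathlib.Combinatorics.Enumerative.DoubleCounting

set_option autoImplicit false
set_option linter.unusedSectionVars false

/-!
In even characteristic an overgroup of the monomial subgroup of `SU(3, q)`, `q ≥ 4`, without mixed elements with a
zero entry consists of monomial elements: double counting of transvections against images of the axes.
-/

namespace Cfsg.Agent.H2.SU3

open scoped Matrix Classical
open Cfsg.Agent.H98 Cfsg.Agent.H3 Cfsg.Agent.H60.SULow

variable {F : Type*} [Field F] [Fintype F] {q : ℕ}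

local notation "Mat" => Matrix (Fin 3) (Fin 3) F
local notation "h" => Cfsg.hermForm 3 F q
local notation "G₁" => Cfsg.GU 3 F q ⊓ Cfsg.Geo.specialLinear (Fin 3) F

theorem neg_self_of_two (h2 : (2 : F) = 0) {ι : Type*} (v : ι → F) : -v = v := by
  funext l
  rw [Pi.neg_apply]
  linear_combination (-v l) * h2

variable (hF : Fintype.card F = q ^ 2) {M : Subgroup (GL (Fin 3) F)}
include hF

/-- A transvection conjugate to a monomial one. -/
def IsTr (q : ℕ) (M : Subgroup (GL (Fin 3) F)) (x : GL (Fin 3) F) : Prop :=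
  ∃ m ∈ M, ∃ u : F, u ^ (q + 1) = 1 ∧
    ∀ v, (x : Matrix (Fin 3) (Fin 3) F) *ᵥ v =
      v + Cfsg.hermForm 3 F q v ((m : Matrix (Fin 3) (Fin 3) F) *ᵥ wVec u) • ((m : Matrix (Fin 3) (Fin 3) F) *ᵥ wVec u)

/-- A line spanned by the image of an axis. -/
def IsAxisImage (M : Subgroup (GL (Fin 3) F)) (L : Submodule F (Fin 3 → F)) : Prop :=
  ∃ m ∈ M, ∃ j : Fin 3, L = Submodule.span F {((m : GL (Fin 3) F) : Matrix (Fin 3) (Fin 3) F) *ᵥ Pi.single j 1}

theorem wVec_iso (h2 : (2 : F) = 0) {u : F} (hu : u ^ (q + 1) = 1) : h (wVec u) (wVec u) = 0 := by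
  rw [herm_wVec hF]
  simp [wVec, norm_one_conj hF hu, one_add_one_eq_two, h2]

/-- Data of a transvection of the family. -/
theorem tr_data (h2 : (2 : F) = 0) (hMK : M ≤ G₁) (hmono : HasMono q M) {x : GL (Fin 3) F} (hx : IsTr q M x) :
    x ∈ M ∧ ∃ r : Fin 3 → F, h r r = 0 ∧ r ≠ 0 ∧ ∀ v, (x : Mat) *ᵥ v = v + h v r • r := by
  obtain ⟨m, hm, u, hu, hxv⟩ := hx
  obtain ⟨y, hyG, hym, -, hyv⟩ := exists_refl hF hu
  have hxe : x = m * y * m⁻¹ := gl_ext fun v => by
    rw [hxv, conj_refl_apply hF (hMK hm).1 hyv, neg_self_of_two h2]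
  refine ⟨hxe ▸ M.mul_mem (M.mul_mem hm (hmono y hyG hym)) (M.inv_mem hm), _, ?_, ?_, hxv⟩
  · rw [show h ((m : Mat) *ᵥ wVec u) ((m : Mat) *ᵥ wVec u) = h (wVec u) (wVec u) from (hMK hm).1 _ _,
      wVec_iso hF h2 hu]
  · intro e
    have := congrArg (fun z => ((m⁻¹ : GL (Fin 3) F) : Mat) *ᵥ z) e
    simp only [gl_inv_mulVec, Matrix.mulVec_zero] at this
    simpa [wVec] using congrFun this 1

theorem norm_sum (h2 : (2 : F) = 0) {r : Fin 3 → F} (hr : h r r = 0) :
    r 1 ^ (q + 1) + r 2 ^ (q + 1) = r 0 ^ (q + 1) := by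
  rw [Cfsg.hermForm, Fin.sum_univ_three] at hr
  simp only [← pow_succ'] at hr
  linear_combination hr - r 0 ^ (q + 1) * h2

theorem eq_of_smul {x x' : GL (Fin 3) F} {r r' : Fin 3 → F} (hx : ∀ v, (x : Mat) *ᵥ v = v + h v r • r)
    (hx' : ∀ v, (x' : Mat) *ᵥ v = v + h v r' • r') {c : F} (hc : c ^ (q + 1) = 1) (he : r' = c • r) : x = x' :=
  gl_ext fun v => by
    rw [hx, hx', he, hermForm_smul_right hF, smul_smul, mul_right_comm, mul_comm (c ^ q), norm_one_conj hF hc,
      one_mul]

/-- The transvections against the images of the axes. -/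
theorem card_tr_le (h2 : (2 : F) = 0) (hMK : M ≤ G₁) (hmono : HasMono q M) (hspread : Spreading M)
    (hzero : ∀ g ∈ M, ∀ c d : Fin 3, ((g : GL (Fin 3) F) : Mat).mulVec (Pi.single d 1) c = 0 → IsMonom g)
    [Fintype (GL (Fin 3) F)] [Fintype (Submodule F (Fin 3 → F))] :
    (Finset.univ.filter (IsTr q M)).card ≤ (Finset.univ.filter (IsAxisImage M)).card + 3 * q := by
  have hq0 : q ≠ 0 := q_ne_zero' hF
  set T := Finset.univ.filter (IsTr q M) with hT
  have hex : ∀ x ∈ T, ∃ r : Fin 3 → F, x ∈ M ∧ h r r = 0 ∧ r ≠ 0 ∧ ∀ v, (x : Mat) *ᵥ v = v + h v r • r := by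
    intro x hx
    obtain ⟨hxM, r, h1, h3, h4⟩ := tr_data hF h2 hMK hmono (Finset.mem_filter.mp hx).2
    exact ⟨r, hxM, h1, h3, h4⟩
  choose r hxM hrr hr0 hxv using hex
  let e₀ : Fin 3 → F := Pi.single 0 1
  have hcol : ∀ (x : GL (Fin 3) F) (hx : x ∈ T) (l : Fin 3),
      ((x : Mat) *ᵥ e₀) l = e₀ l + r x hx 0 ^ q * r x hx l := fun x hx l => by
    rw [hxv x hx, hermForm_single_left, one_mul, Pi.add_apply, Pi.smul_apply, smul_eq_mul]
  -- the axis reached from a zero entry
  have hax : ∀ (x : GL (Fin 3) F), x ∈ T → ∀ l, ((x : Mat) *ᵥ e₀) l = 0 →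
      ∃ b : Fin 3, ∀ k, k ≠ b → ((x : Mat) *ᵥ e₀) k = 0 := by
    intro x hx l hl
    obtain ⟨b, a, ha, e⟩ := exists_axis (hzero x (hxM x hx) l 0 hl 0) (gl_single_ne_zero x 0)
    exact ⟨b, fun k hk => by rw [e]; simp [hk]⟩
  set Fx := T.filter fun x : GL (Fin 3) F => (x : Mat) *ᵥ e₀ = e₀ with hFx
  let Mv : Fin 3 → Finset (GL (Fin 3) F) := fun b => T.filter fun x : GL (Fin 3) F => ∀ k, k ≠ b → ((x : Mat) *ᵥ e₀) k = 0
  set R := T.filter fun x : GL (Fin 3) F => ∀ l, ((x : Mat) *ᵥ e₀) l ≠ 0 with hR
  have hsplit : T ⊆ Fx ∪ Mv 1 ∪ Mv 2 ∪ R := by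
    intro x hx
    simp only [Finset.mem_union, hFx, hR, Mv, Finset.mem_filter, hx, true_and]
    by_cases hl : ∀ l, ((x : Mat) *ᵥ e₀) l ≠ 0
    · exact Or.inr hl
    push Not at hl
    obtain ⟨l, hl⟩ := hl
    obtain ⟨b, hb⟩ := hax x hx l hl
    fin_cases b
    · -- the first axis is fixed
      refine Or.inl (Or.inl (Or.inl ?_))
      have e1 := hb 1 (by decide)
      have e2 := hb 2 (by decide)
      rw [hcol x hx] at e1 e2
      simp [e₀] at e1 e2
      have hr00 : r x hx 0 = 0 := by
        by_contra hne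
        have f1 := e1.resolve_left fun e => hne e.1
        have f2 := e2.resolve_left fun e => hne e.1
        have := norm_sum hF h2 (hrr x hx)
        rw [f1, f2, zero_pow (Nat.succ_ne_zero q), zero_add] at this
        exact hne (eq_zero_of_pow_eq_zero this.symm)
      rw [hxv x hx, hermForm_single_left, hr00, zero_pow hq0, mul_zero, zero_smul, add_zero]
    · exact Or.inl (Or.inl (Or.inr hb))
    · exact Or.inl (Or.inr hb)
  -- the fixing ones
  have hFcard : Fx.card ≤ q + 1 := by
    rw [← card_normOne hF]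
    have key : ∀ x (hx : x ∈ T), (x : Mat) *ᵥ e₀ = e₀ →
        r x hx 0 = 0 ∧ r x hx 1 ^ (q + 1) = 1 ∧ r x hx 2 ^ (q + 1) = 1 := by
      intro x hx he
      have h0 : r x hx 0 = 0 := by
        obtain ⟨l, hl⟩ := Function.ne_iff.mp (hr0 x hx)
        have := hcol x hx l
        rw [he, left_eq_add, mul_eq_zero, pow_eq_zero_iff hq0] at this
        exact this.resolve_right hl
      have hs := norm_sum hF h2 (hrr x hx)
      rw [h0, zero_pow (Nat.succ_ne_zero q)] at hs
      have hmon : IsMonom x := hspread x (hxM x hx) 0 (by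
        show IsAxis ((x : Mat) *ᵥ e₀)
        rw [he]; exact isAxis_single 0)
      have hx1 : ∀ l, ((x : Mat) *ᵥ Pi.single 1 1) l = (Pi.single 1 1 : Fin 3 → F) l + r x hx 1 ^ q * r x hx l :=
        fun l => by rw [hxv x hx, hermForm_single_left, one_mul, Pi.add_apply, Pi.smul_apply, smul_eq_mul]
      have h1 : r x hx 1 ≠ 0 := fun e => by
        rw [e, zero_pow (Nat.succ_ne_zero q), zero_add] at hs
        refine hr0 x hx (funext fun l => ?_)
        fin_cases l
        · exact h0
        · exact e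
        · exact eq_zero_of_pow_eq_zero hs
      have h2' : r x hx 2 ≠ 0 := fun e => by
        rw [e, zero_pow (Nat.succ_ne_zero q), add_zero] at hs
        exact h1 (eq_zero_of_pow_eq_zero hs)
      have hc : 1 + r x hx 1 ^ q * r x hx 1 = 0 := by
        by_contra hne
        refine absurd (hmon 1 1 2 ?_ ?_) (by decide)
        · rw [hx1]; simpa using hne
        · rw [hx1]; simpa using mul_ne_zero (pow_ne_zero q h1) h2'
      have hn1 : r x hx 1 ^ (q + 1) = 1 := by rw [pow_succ]; linear_combination hc - h2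
      refine ⟨h0, hn1, ?_⟩
      linear_combination hs - hn1 - (1 : F) * h2 + (0 : F)
    refine Finset.card_le_card_of_injOn (fun x => if hx : x ∈ T then r x hx 2 / r x hx 1 else 0) ?_ ?_
    · intro x hx
      obtain ⟨hx', he⟩ := Finset.mem_filter.mp hx
      obtain ⟨-, n1, n2⟩ := key x hx' he
      simp only [dif_pos hx']
      exact mem_normOne.mpr (by rw [div_pow, n2, n1, div_one])
    · intro x hx x' hx' e
      obtain ⟨hxT, he⟩ := Finset.mem_filter.mp hx
      obtain ⟨hxT', he'⟩ := Finset.mem_filter.mp hx'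
      obtain ⟨a0, a1, -⟩ := key x hxT he
      obtain ⟨b0, b1, -⟩ := key x' hxT' he'
      simp only [dif_pos hxT, dif_pos hxT'] at e
      refine eq_of_smul hF (hxv x hxT) (hxv x' hxT') (c := r x' hxT' 1 / r x hxT 1) (by rw [div_pow, a1, b1, div_one])
        (funext fun l => ?_)
      have n1 := norm_one_ne_zero hF a1
      have n1' := norm_one_ne_zero hF b1
      fin_cases l
      · simp [a0, b0]
      · simp [div_mul_cancel₀ _ n1]
      · simp only [Pi.smul_apply, smul_eq_mul]
        simp only [Fin.reduceFinMk] at e ⊢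
        field_simp at e ⊢
        linear_combination -e
  -- the ones moving to another axis
  have hMcard : ∀ b : Fin 3, b ≠ 0 → (Mv b).card ≤ q + 1 := by
    intro b hb
    rw [← card_normOne hF]
    obtain ⟨c, hc0, hcb⟩ := exists_third 0 b hb.symm
    have key : ∀ x (hx : x ∈ T), (∀ k, k ≠ b → ((x : Mat) *ᵥ e₀) k = 0) →
        r x hx 0 ^ (q + 1) = 1 ∧ r x hx c = 0 ∧ r x hx b ^ (q + 1) = 1 := by
      intro x hx he
      have a0 := he 0 hb.symm
      have ac := he c hcb
      rw [hcol x hx] at a0 ac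
      simp [e₀, hc0] at a0 ac
      have hn : r x hx 0 ^ (q + 1) = 1 := by rw [pow_succ]; linear_combination a0 - h2
      have hc' : r x hx c = 0 := ac.resolve_left fun e => norm_one_ne_zero hF hn e.1
      have hs := hrr x hx
      rw [herm3 hb.symm hc0 hcb, hc', zero_mul, add_zero, ← pow_succ', ← pow_succ', hn] at hs
      exact ⟨hn, hc', by linear_combination hs - h2⟩
    refine Finset.card_le_card_of_injOn (fun x => if hx : x ∈ T then r x hx b / r x hx 0 else 0) ?_ ?_
    · intro x hx
      obtain ⟨hx', he⟩ := Finset.mem_filter.mp hx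
      obtain ⟨n1, -, n2⟩ := key x hx' he
      simp only [dif_pos hx']
      exact mem_normOne.mpr (by rw [div_pow, n2, n1, div_one])
    · intro x hx x' hx' e
      obtain ⟨hxT, he⟩ := Finset.mem_filter.mp hx
      obtain ⟨hxT', he'⟩ := Finset.mem_filter.mp hx'
      obtain ⟨a0, ac, -⟩ := key x hxT he
      obtain ⟨b0, bc, -⟩ := key x' hxT' he'
      simp only [dif_pos hxT, dif_pos hxT'] at e
      refine eq_of_smul hF (hxv x hxT) (hxv x' hxT') (c := r x' hxT' 0 / r x hxT 0) (by rw [div_pow, a0, b0, div_one])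
        (funext fun l => ?_)
      have n0 := norm_one_ne_zero hF a0
      have n0' := norm_one_ne_zero hF b0
      rcases fin3_cases 0 b c l hb.symm hc0 hcb with rfl | rfl | rfl
      · simp [div_mul_cancel₀ _ n0]
      · simp only [Pi.smul_apply, smul_eq_mul]
        field_simp at e ⊢
        linear_combination -e
      · simp [ac, bc]
  -- the others
  set O := Finset.univ.filter (IsAxisImage M) with hO
  let ax : Finset (Submodule F (Fin 3 → F)) :=
    Finset.univ.image fun j : Fin 3 => Submodule.span F {(Pi.single j 1 : Fin 3 → F)}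
  have hax_card : ax.card = 3 := by
    rw [Finset.card_image_of_injective]
    · simp
    intro i j e
    by_contra hne
    have : (Pi.single i 1 : Fin 3 → F) ∈ Submodule.span F {(Pi.single j 1 : Fin 3 → F)} := by
      have e' : Submodule.span F {(Pi.single i 1 : Fin 3 → F)} = Submodule.span F {(Pi.single j 1 : Fin 3 → F)} := e
      rw [← e']; exact Submodule.mem_span_singleton_self _
    obtain ⟨k, hk⟩ := Submodule.mem_span_singleton.mp this
    simpa [hne] using congrFun hk i
  have haxO : ax ⊆ O := fun L hL => by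
    obtain ⟨j, -, rfl⟩ := Finset.mem_image.mp hL
    exact Finset.mem_filter.mpr ⟨Finset.mem_univ _, 1, M.one_mem, j, by rw [Units.val_one, Matrix.one_mulVec]⟩
  have hRcard : R.card ≤ (O \ ax).card := by
    refine Finset.card_le_card_of_injOn (fun x => Submodule.span F {(x : Mat) *ᵥ e₀}) ?_ ?_
    · intro x hx
      obtain ⟨hxT, hall⟩ := Finset.mem_filter.mp hx
      refine Finset.mem_sdiff.mpr ⟨Finset.mem_filter.mpr ⟨Finset.mem_univ _, x, hxM x hxT, 0, rfl⟩, fun hL => ?_⟩
      obtain ⟨j, -, e⟩ := Finset.mem_image.mp hL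
      have e' : Submodule.span F {(Pi.single j 1 : Fin 3 → F)} = Submodule.span F {(x : Mat) *ᵥ e₀} := e
      obtain ⟨k, hk⟩ := Submodule.mem_span_singleton.mp
        (show (x : Mat) *ᵥ e₀ ∈ Submodule.span F {(Pi.single j 1 : Fin 3 → F)} by
          rw [e']; exact Submodule.mem_span_singleton_self _)
      obtain ⟨l, hl⟩ := exists_ne j
      exact hall l (by rw [← hk]; simp [hl])
    · intro x hx x' hx' e
      obtain ⟨hxT, hall⟩ := Finset.mem_filter.mp hx
      obtain ⟨hxT', hall'⟩ := Finset.mem_filter.mp hx'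
      obtain ⟨c, hc⟩ := Submodule.mem_span_singleton.mp (show (x' : Mat) *ᵥ e₀ ∈ Submodule.span F {(x : Mat) *ᵥ e₀} by
        have e' : Submodule.span F {(x : Mat) *ᵥ e₀} = Submodule.span F {(x' : Mat) *ᵥ e₀} := e
        rw [e']; exact Submodule.mem_span_singleton_self _)
      have k : ∀ l, e₀ l + r x' hxT' 0 ^ q * r x' hxT' l = c * (e₀ l + r x hxT 0 ^ q * r x hxT l) := fun l => by
        rw [← hcol x' hxT', ← hcol x hxT, ← hc, Pi.smul_apply, smul_eq_mul]
      have k0 := k 0
      have k1 := k 1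
      have k2 := k 2
      simp only [e₀, Pi.single_eq_same, Pi.single_eq_of_ne (show (1 : Fin 3) ≠ 0 by decide),
        Pi.single_eq_of_ne (show (2 : Fin 3) ≠ 0 by decide), zero_add, ← pow_succ] at k0 k1 k2
      set n := r x hxT 0 ^ (q + 1) with hn
      set n' := r x' hxT' 0 ^ (q + 1) with hn'
      have hnq : n ^ q = n := norm_pow_q hF _
      have hn'q : n' ^ q = n' := norm_pow_q hF _
      have hne : 1 + n ≠ 0 := fun e' => hall 0 (by
        rw [hcol x hxT, show e₀ 0 = 1 by simp [e₀], ← pow_succ]; exact e')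
      -- norms of the two sides
      have N0 : (1 + n') * (1 + n') = c * c ^ q * ((1 + n) * (1 + n)) := by
        have := congrArg (fun z : F => z * z ^ q) k0
        simp only [mul_pow, add_pow_q hF, one_pow, hnq, hn'q] at this
        linear_combination this
      have N12 : n' * n' = c * c ^ q * (n * n) := by
        have s1 := norm_sum hF h2 (hrr x hxT)
        have s2 := norm_sum hF h2 (hrr x' hxT')
        rw [← hn] at s1
        rw [← hn'] at s2
        have q1 := congrArg (· ^ (q + 1)) k1
        have q2 := congrArg (· ^ (q + 1)) k2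
        simp only [mul_pow] at q1 q2
        have hh : ∀ z : F, (z ^ q) ^ (q + 1) = z ^ (q + 1) := fun z => by
          rw [pow_succ', pow_q_pow_q hF, mul_comm, ← pow_succ']
        rw [hh, hh, ← hn, ← hn', pow_succ' c] at q1 q2
        linear_combination q1 + q2 - n' * s2 + c * c ^ q * n * s1
      have hnn : n' = n := by
        have e1 : (n' * (1 + n) - n * (1 + n')) * (n' * (1 + n) - n * (1 + n')) = 0 := by
          linear_combination (1 + n) * (1 + n) * N12 - n * n * N0 +
            (n * n * ((1 + n') * (1 + n')) - n * (1 + n') * n' * (1 + n)) * h2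
        linear_combination sub_eq_zero.mp (mul_self_eq_zero.mp e1)
      have hc1 : c = 1 := mul_right_cancel₀ hne (by rw [one_mul, ← k0, hnn])
      rw [hc1, one_mul] at k1 k2
      have hρ : r x hxT 0 ≠ 0 := fun e' => hall 1 (by
        rw [hcol x hxT, e', zero_pow hq0]; simp [e₀])
      have hρ' : r x' hxT' 0 ≠ 0 := fun e' => hall' 1 (by
        rw [hcol x' hxT', e', zero_pow hq0]; simp [e₀])
      have hd : (r x' hxT' 0 / r x hxT 0) ^ (q + 1) = 1 := by
        rw [div_pow, ← hn, ← hn', hnn, div_self]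
        exact pow_ne_zero _ hρ
      refine eq_of_smul hF (hxv x hxT) (hxv x' hxT') hd (funext fun l => ?_)
      have hq : r x hxT 0 ^ q = (r x' hxT' 0 / r x hxT 0) * r x' hxT' 0 ^ q := by
        rw [div_mul_eq_mul_div, eq_div_iff hρ, ← pow_succ, ← pow_succ', ← hn, ← hn', hnn]
      fin_cases l
      · simp [div_mul_cancel₀ _ hρ]
      · simp only [Pi.smul_apply, smul_eq_mul]
        refine mul_left_cancel₀ (pow_ne_zero q hρ') ?_
        simp only [Fin.isValue, Fin.mk_one] at k1 ⊢
        linear_combination k1 + r x hxT 1 * hq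
      · simp only [Pi.smul_apply, smul_eq_mul]
        refine mul_left_cancel₀ (pow_ne_zero q hρ') ?_
        simp only [Fin.isValue, Fin.reduceFinMk] at k2 ⊢
        linear_combination k2 + r x hxT 2 * hq
  rw [Finset.card_sdiff_of_subset haxO, hax_card] at hRcard
  have hO3 : 3 ≤ O.card := by
    have := Finset.card_le_card haxO
    omega
  have := (Finset.card_le_card hsplit).trans ((Finset.card_union_le _ _).trans (Nat.add_le_add_right
    ((Finset.card_union_le _ _).trans (Nat.add_le_add_right (Finset.card_union_le _ _) _)) _))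
  have := hMcard 1 (by decide)
  have := hMcard 2 (by decide)
  omega

/-- At most four images of axes lie on the polar line of a centre. -/
theorem card_fixed_le (h2 : (2 : F) = 0) (hq : 3 ≤ q) (h5 : q ≠ 5) (hMK : M ≤ G₁) (hdiag : HasDiag q M)
    (hspread : Spreading M)
    (hzero : ∀ g ∈ M, ∀ c d : Fin 3, ((g : GL (Fin 3) F) : Mat).mulVec (Pi.single d 1) c = 0 → IsMonom g)
    {u : F} (hu : u ^ (q + 1) = 1) [Fintype (Submodule F (Fin 3 → F))] :
    ((Finset.univ.filter (IsAxisImage M)).filter fun L => ∀ v ∈ L, h v (wVec u) = 0).card ≤ 4 := by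
  have hq0 : q ≠ 0 := q_ne_zero' hF
  have huu := norm_one_conj hF hu
  obtain ⟨η, -, hη, -, hη3, -, -⟩ := exists_cubes hF hq h5
  have hη0 := norm_one_ne_zero hF hη
  set θ := (η⁻¹) ^ 3 with hθ
  have hθ1 : θ ≠ 1 := fun e => hη3 (by rwa [hθ, inv_pow, inv_eq_one] at e)
  have hθ0 : θ ≠ 0 := pow_ne_zero 3 (inv_ne_zero hη0)
  set κ := (θ - 1) / θ with hκ
  have hκ0 : κ ≠ 0 := div_ne_zero (sub_ne_zero.mpr hθ1) hθ0
  let X : AddSubgroup F :=
    { carrier := {s | ∃ m ∈ M, ((m : GL (Fin 3) F) : Mat) *ᵥ wVec u = wVec u ∧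
        (m : Mat) *ᵥ Pi.single 0 1 = (Pi.single 0 1 : Fin 3 → F) + s • wVec u}
      zero_mem' := ⟨1, M.one_mem, by rw [Units.val_one, Matrix.one_mulVec],
        by rw [Units.val_one, Matrix.one_mulVec, zero_smul, add_zero]⟩
      add_mem' := fun {s s'} => by
        rintro ⟨m, hm, a1, a2⟩ ⟨m', hm', b1, b2⟩
        refine ⟨m * m', M.mul_mem hm hm', by rw [Units.val_mul, ← Matrix.mulVec_mulVec, b1, a1], ?_⟩
        rw [Units.val_mul, ← Matrix.mulVec_mulVec, b2, Matrix.mulVec_add, Matrix.mulVec_smul, a1, a2, add_smul,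
          add_assoc]
      neg_mem' := fun {s} => by
        rintro ⟨m, hm, a1, a2⟩
        have b1 : ((m⁻¹ : GL (Fin 3) F) : Mat) *ᵥ wVec u = wVec u := by
          conv_lhs => rw [← a1, gl_inv_mulVec]
        refine ⟨m⁻¹, M.inv_mem hm, b1, ?_⟩
        have e := gl_inv_mulVec m (Pi.single 0 1)
        rw [a2, Matrix.mulVec_add, Matrix.mulVec_smul, b1] at e
        rw [neg_smul, ← sub_eq_add_neg, eq_sub_iff_add_eq]
        exact e }
  -- the non-zero parameters have norm one
  have hXn : ∀ s ∈ X, s ≠ 0 → s ^ (q + 1) = 1 := by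
    rintro s ⟨m, hm, a1, a2⟩ hs0
    have hI : ∀ a b, h ((m : Mat) *ᵥ a) ((m : Mat) *ᵥ b) = h a b := (hMK hm).1
    set z := (m : Mat) *ᵥ Pi.single 1 1 with hz
    have z12 : z 1 + z 2 * u ^ q = 1 := by
      rw [← herm_wVec hF, hz, ← a1, hI, hermForm_single_left]; simp [wVec]
    have z0 : z 0 = s ^ q := by
      have := hI (Pi.single 1 1) (Pi.single 0 1)
      rw [← hz, a2, hermForm_add_right hF, hermForm_smul_right hF, herm_single_right hF, herm_single_right hF,
        herm_wVec hF, z12] at this
      simp at this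
      linear_combination this - s ^ q * h2
    set c := z 2 * u ^ q with hc
    have hze : z = (s ^ q) • Pi.single 0 1 + Pi.single 1 1 + c • wVec u := funext fun l => by
      fin_cases l
      · simp [wVec, z0]
      · simp [wVec]; linear_combination z12 - c * h2
      · simp [wVec, hc]; linear_combination -(z 2) * huu
    have hm2 : ((m * m : GL (Fin 3) F) : Mat) *ᵥ Pi.single 0 1 = Pi.single 0 1 := by
      rw [Units.val_mul, ← Matrix.mulVec_mulVec, a2, Matrix.mulVec_add, Matrix.mulVec_smul, a2, a1, add_assoc,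
        ← two_smul F (s • wVec u), h2, zero_smul, add_zero]
    have hmon : IsMonom (m * m) := hspread _ (M.mul_mem hm hm) 0 (by rw [hm2]; exact isAxis_single 0)
    have h11 : ((m * m : GL (Fin 3) F) : Mat) *ᵥ Pi.single 1 1 = Pi.single 1 1 + s ^ (q + 1) • wVec u := by
      rw [Units.val_mul, ← Matrix.mulVec_mulVec, ← hz]
      conv_lhs => rw [hze]
      rw [Matrix.mulVec_add, Matrix.mulVec_add, Matrix.mulVec_smul, Matrix.mulVec_smul, a1, a2, ← hz, hze, pow_succ]
      funext l
      simp only [Pi.add_apply, Pi.smul_apply, smul_eq_mul]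
      linear_combination ((Pi.single 0 1 : Fin 3 → F) l * s ^ q + c * wVec u l) * h2
    have hax := hmon 1 1 2
    rw [h11] at hax
    simp [wVec, norm_one_ne_zero hF hu, pow_eq_zero_iff, hs0] at hax
    linear_combination hax - h2
  -- hence at most four of them
  have hX4 : Nat.card X ≤ 4 := by
    by_cases hbot : ∀ s ∈ X, s = 0
    · have : X = ⊥ := (AddSubgroup.eq_bot_iff_forall X).mpr hbot
      rw [this, AddSubgroup.card_bot]; norm_num
    push Not at hbot
    obtain ⟨x₀, hx₀, hx₀0⟩ := hbot
    let P : Polynomial F := Polynomial.X ^ 2 + Polynomial.X + Polynomial.C 1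
    have hP : P.natDegree ≤ 2 := by
      have := Polynomial.natDegree_quadratic_le (a := (1 : F)) (b := 1) (c := 1)
      simpa [P] using this
    have hP0 : P ≠ 0 := fun e => by
      have := congrArg (fun p => Polynomial.coeff p 0) e
      simp [P, Polynomial.coeff_X_pow, Polynomial.coeff_X] at this
    let S : Finset F := ({0, x₀} : Finset F) ∪ P.roots.toFinset.image fun c => c * x₀
    have hsub : ∀ y ∈ X, y ∈ S := by
      intro y hy
      simp only [S, Finset.mem_union, Finset.mem_insert, Finset.mem_singleton, Finset.mem_image,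
        Multiset.mem_toFinset]
      by_cases hy0 : y = 0
      · exact Or.inl (Or.inl hy0)
      by_cases hyx : y = x₀
      · exact Or.inl (Or.inr hyx)
      refine Or.inr ⟨y / x₀, ?_, div_mul_cancel₀ _ hx₀0⟩
      rw [Polynomial.mem_roots hP0]
      simp only [P, Polynomial.IsRoot, Polynomial.eval_add, Polynomial.eval_pow, Polynomial.eval_X,
        Polynomial.eval_C]
      have a := hXn _ hx₀ hx₀0
      have b := hXn _ hy hy0
      have c := hXn _ (X.add_mem hx₀ hy) fun e => hyx (by linear_combination e - x₀ * h2)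
      set t := y / x₀ with ht
      have tn : t * t ^ q = 1 := norm_one_conj hF (by rw [ht, div_pow, a, b, div_one])
      rw [show x₀ + y = x₀ * (1 + t) by rw [ht, mul_add, mul_div_cancel₀ _ hx₀0, mul_one], mul_pow, a, one_mul,
        pow_succ', add_pow_q hF, one_pow] at c
      linear_combination t * c - (1 + t) * tn
    have hle : Nat.card X ≤ S.card := by
      rw [← Nat.card_eq_finsetCard S]
      exact Nat.card_le_card_of_injective (fun y : X => (⟨y.1, hsub _ y.2⟩ : S)) fun a b e =>
        Subtype.ext (congrArg (fun z : S => z.1) e)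
    have h22 : ({0, x₀} : Finset F).card ≤ 2 := Finset.card_le_two
    have h3 : (P.roots.toFinset.image fun c => c * x₀).card ≤ 2 :=
      Finset.card_image_le.trans ((Multiset.toFinset_card_le _).trans ((Polynomial.card_roots' _).trans hP))
    exact hle.trans ((Finset.card_union_le _ _).trans (by omega))
  -- parameters of the lines
  set A := (Finset.univ.filter (IsAxisImage M)).filter fun L => ∀ v ∈ L, h v (wVec u) = 0 with hA
  have key : ∀ L ∈ A, ∃ t : F, κ * t ∈ X ∧ L = Submodule.span F {(Pi.single 0 1 : Fin 3 → F) + t • wVec u} := by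
    intro L hL
    obtain ⟨hLO, hperp⟩ := Finset.mem_filter.mp hL
    obtain ⟨k, hk, j, rfl⟩ := (Finset.mem_filter.mp hLO).2
    set f := (k : Mat) *ᵥ Pi.single j 1 with hf
    have h12 := hperp f (Submodule.mem_span_singleton_self f)
    rw [herm_wVec hF] at h12
    have hf2 : f 2 = u * f 1 := by linear_combination u * h12 - f 2 * huu - (u * f 1) * h2 + (0 : F)
    have hf0 : f 0 ≠ 0 := by
      intro e
      obtain ⟨b, a, ha, hfa⟩ := exists_axis (hzero k hk 0 j e j) (gl_single_ne_zero k j)
      have ha' : f = a • Pi.single b 1 := hfa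
      rw [ha'] at e hf2
      fin_cases b <;> simp [ha, norm_one_ne_zero hF hu] at e hf2
    set t := f 1 / f 0 with ht
    have hfe : f = f 0 • ((Pi.single 0 1 : Fin 3 → F) + t • wVec u) := funext fun l => by
      fin_cases l <;> simp [wVec, ht, hf2, Matrix.vecHead, Matrix.vecTail] <;> field_simp
    have hf00 : f 0 ^ q * f 0 = 1 := by
      have e : h f f = 1 := by
        rw [hf, show h ((k : Mat) *ᵥ Pi.single j 1) ((k : Mat) *ᵥ Pi.single j 1) =
          h (Pi.single j 1) (Pi.single j 1) from (hMK hk).1 _ _, hermForm_single_left]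
        simp
      rw [Cfsg.hermForm, Fin.sum_univ_three, hf2, mul_pow] at e
      linear_combination e - f 1 * f 1 ^ q * huu - f 1 * f 1 ^ q * h2
    refine ⟨t, ?_, ?_⟩
    · -- a product of two homologies
      let δ : Fin 3 → Fin 3 → F := fun d l => η * if l = d then θ else 1
      have hδ : ∀ d l, δ d l ^ (q + 1) = 1 := fun d l => by
        simp only [δ, mul_pow, hη, one_mul]
        split_ifs
        · rw [hθ, ← pow_mul, mul_comm 3, pow_mul, norm_one_inv hF hη, one_pow]
        · exact one_pow _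
      have hδp : ∀ d, ∏ l, δ d l = 1 := fun d => by
        simp only [δ, Finset.prod_mul_distrib, Finset.prod_const, Finset.card_univ, Fintype.card_fin,
          Finset.prod_ite_eq', Finset.mem_univ, if_true, hθ, ← mul_pow, mul_inv_cancel₀ hη0, one_pow]
      have hD : ∀ d v, ((guDiag (q := q) (δ d) (hδ d)).1 : Mat) *ᵥ v =
          η • v + (η * (θ - 1) * v d) • Pi.single d 1 := fun d v => by
        ext l
        by_cases h1 : l = d
        · subst h1; simp [guDiag, Matrix.mulVec_diagonal, δ]; ring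
        · simp [guDiag, Matrix.mulVec_diagonal, δ, h1]
      set H₀ := (guDiag (q := q) (δ 0) (hδ 0)).1 with hH₀
      set H := k * (guDiag (q := q) (δ j) (hδ j)).1 * k⁻¹ with hH
      have hHv : ∀ v, (H : Mat) *ᵥ v = η • v + (η * (θ - 1) * h v f) • f := fun v => by
        rw [hH, Units.val_mul, Units.val_mul, ← Matrix.mulVec_mulVec, ← Matrix.mulVec_mulVec, hD, Matrix.mulVec_add,
          Matrix.mulVec_smul, Matrix.mulVec_smul, gl_mulVec_inv, hf, herm_image hF (hMK hk).1]
      refine ⟨H * H₀⁻¹, M.mul_mem (M.mul_mem (M.mul_mem hk (hdiag _ (hδ j) (hδp j))) (M.inv_mem hk))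
        (M.inv_mem (hdiag _ (hδ 0) (hδp 0))), ?_, ?_⟩
      · have e0 : (H₀ : Mat) *ᵥ wVec u = η • wVec u := by rw [hD]; simp [wVec]
        have e1 : (H : Mat) *ᵥ wVec u = η • wVec u := by
          rw [hHv, ← hermForm_pow_q hF f (wVec u), hperp f (Submodule.mem_span_singleton_self f), zero_pow hq0,
            mul_zero, zero_smul, add_zero]
        have e2 : ((H₀⁻¹ : GL (Fin 3) F) : Mat) *ᵥ wVec u = η⁻¹ • wVec u := by
          have := congrArg (fun z => η⁻¹ • ((H₀⁻¹ : GL (Fin 3) F) : Mat) *ᵥ z) e0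
          simp only [gl_inv_mulVec, Matrix.mulVec_smul, smul_smul, inv_mul_cancel₀ hη0, one_smul] at this
          exact this.symm
        rw [Units.val_mul, ← Matrix.mulVec_mulVec, e2, Matrix.mulVec_smul, e1, smul_smul, inv_mul_cancel₀ hη0,
          one_smul]
      · have e0 : (H₀ : Mat) *ᵥ Pi.single 0 1 = (η * θ) • Pi.single 0 1 := by
          rw [hD, ← add_smul, Pi.single_eq_same]
          congr 1
          ring
        have e2 : ((H₀⁻¹ : GL (Fin 3) F) : Mat) *ᵥ Pi.single 0 1 = (η * θ)⁻¹ • Pi.single 0 1 := by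
          have := congrArg (fun z => (η * θ)⁻¹ • ((H₀⁻¹ : GL (Fin 3) F) : Mat) *ᵥ z) e0
          simp only [gl_inv_mulVec, Matrix.mulVec_smul, smul_smul, inv_mul_cancel₀ (mul_ne_zero hη0 hθ0),
            one_smul] at this
          exact this.symm
        rw [Units.val_mul, ← Matrix.mulVec_mulVec, e2, Matrix.mulVec_smul, hHv, hermForm_single_left, one_mul]
        conv_lhs => rw [hfe]
        simp only [Pi.add_apply, Pi.smul_apply, smul_eq_mul, Pi.single_eq_same]
        simp only [wVec, Matrix.cons_val_zero, mul_zero, add_zero, mul_one]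
        rw [smul_smul, mul_assoc (η * (θ - 1)), hf00, mul_one, hκ]
        simp only [smul_add, smul_smul]
        rw [← add_assoc, ← add_smul]
        congr 2
        · convert one_smul F _ using 2
          field_simp
          ring
        · field_simp
    · conv_lhs => rw [hfe]
      exact Submodule.span_singleton_smul_eq (Ne.isUnit hf0) _
  choose t ht hLt using key
  have hle : A.card ≤ Nat.card X := by
    rw [← Nat.card_eq_finsetCard A]
    refine Nat.card_le_card_of_injective (fun L : A => (⟨κ * t L.1 L.2, ht L.1 L.2⟩ : X)) fun a b e => ?_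
    have e' : t a.1 a.2 = t b.1 b.2 := mul_left_cancel₀ hκ0 (congrArg (fun z : X => z.1) e)
    exact Subtype.ext (by rw [hLt a.1 a.2, hLt b.1 b.2, e'])
  omega

set_option maxHeartbeats 1000000 in
/-- In even characteristic there is no mixed element. -/
theorem no_mixed_even (h2 : (2 : F) = 0) (hq : 3 ≤ q) (h5 : q ≠ 5) (hMK : M ≤ G₁) (hdiag : HasDiag q M)
    (hmono : HasMono q M) (hspread : Spreading M)
    (hzero : ∀ g ∈ M, ∀ c d : Fin 3, ((g : GL (Fin 3) F) : Mat).mulVec (Pi.single d 1) c = 0 → IsMonom g)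
    {g : GL (Fin 3) F} (hg : g ∈ M) : IsMonom g := by
  by_contra hgm
  haveI : Finite (GL (Fin 3) F) := Finite.of_injective _ Units.val_injective
  letI := Fintype.ofFinite (GL (Fin 3) F)
  haveI : Finite (Submodule F (Fin 3 → F)) := Finite.of_injective
    (SetLike.coe : Submodule F (Fin 3 → F) → Set (Fin 3 → F)) SetLike.coe_injective
  letI := Fintype.ofFinite (Submodule F (Fin 3 → F))
  have hq0 : q ≠ 0 := q_ne_zero' hF
  set T := Finset.univ.filter (IsTr q M) with hT
  set O := Finset.univ.filter (IsAxisImage M) with hO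
  -- incidences
  have hI : O.card * (q + 1) ≤ T.card * 4 := by
    refine Finset.card_mul_le_card_mul (fun L (x : GL (Fin 3) F) => ∀ v ∈ L, (x : Mat) *ᵥ v = v) ?_ ?_
    · intro L hL
      obtain ⟨m, hm, j, rfl⟩ := (Finset.mem_filter.mp hL).2
      obtain ⟨P, hPG, s, hs, hPv⟩ := exists_mono hF (Equiv.swap 0 j) 0
      have hP0 : (P : Mat) *ᵥ Pi.single 0 1 = s j • Pi.single j 1 := by
        rw [hPv]
        funext l
        by_cases hl : l = j
        · subst hl; simp
        · have : Equiv.swap 0 j l ≠ 0 := fun e => hl (by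
            have := congrArg (Equiv.swap 0 j) e
            rwa [Equiv.swap_apply_self, Equiv.swap_apply_left] at this)
          simp [hl, this]
      set m' := m * P with hm'
      have hm'M : m' ∈ M := M.mul_mem hm (hmono P hPG (isMonom_of_mono hPv))
      have hy := fun u : {u : F // u ∈ normOne q F} => exists_refl hF (mem_normOne.mp u.2)
      choose y hyG hym hyy hyv using hy
      let ψ : {u : F // u ∈ normOne q F} → GL (Fin 3) F := fun u => m' * y u * m'⁻¹
      have hψ : Function.Injective ψ := fun a b e => by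
        have e' : y a = y b := mul_left_cancel (mul_right_cancel e)
        have := congrArg (fun z : GL (Fin 3) F => ((z : Mat) *ᵥ Pi.single 1 1) 2) e'
        simp only [hyv, hermForm_single_left] at this
        simp [wVec] at this
        exact this
      rw [← card_normOne hF, ← Finset.card_attach, ← Finset.card_image_of_injective _ hψ]
      refine Finset.card_le_card fun x hx => ?_
      obtain ⟨u, -, rfl⟩ := Finset.mem_image.mp hx
      have hxv : ∀ v, ((ψ u : GL (Fin 3) F) : Mat) *ᵥ v =
          v + h v ((m' : Mat) *ᵥ wVec u.1) • ((m' : Mat) *ᵥ wVec u.1) := fun v => by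
        rw [conj_refl_apply hF (hMK hm'M).1 (hyv u), neg_self_of_two h2]
      refine (Finset.mem_bipartiteAbove _).mpr ⟨Finset.mem_filter.mpr
        ⟨Finset.mem_univ _, m', hm'M, u.1, mem_normOne.mp u.2, hxv⟩, fun v hv => ?_⟩
      obtain ⟨k, rfl⟩ := Submodule.mem_span_singleton.mp hv
      have hme : (m : Mat) *ᵥ Pi.single j 1 = (s j)⁻¹ • ((m' : Mat) *ᵥ Pi.single 0 1) := by
        rw [hm', Units.val_mul, ← Matrix.mulVec_mulVec, hP0, Matrix.mulVec_smul, smul_smul,
          inv_mul_cancel₀ (norm_one_ne_zero hF (hs j)), one_smul]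
      rw [hxv, hermForm_smul_left hF, hme, hermForm_smul_left hF,
        show h ((m' : Mat) *ᵥ Pi.single 0 1) ((m' : Mat) *ᵥ wVec u.1) = h (Pi.single 0 1) (wVec u.1) from
          (hMK hm'M).1 _ _, hermForm_single_left]
      simp [wVec, zero_pow hq0]
    · intro x hx
      obtain ⟨m, hm, u, hu, hxv⟩ := (Finset.mem_filter.mp hx).2
      refine le_trans ?_ (card_fixed_le hF h2 hq h5 hMK hdiag hspread hzero hu)
      let pull : Submodule F (Fin 3 → F) → Submodule F (Fin 3 → F) := fun L =>
        L.map (Matrix.mulVecLin ((m⁻¹ : GL (Fin 3) F) : Mat))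
      refine Finset.card_le_card_of_injOn pull ?_ ?_
      · intro L hL
        obtain ⟨hLO, hfix⟩ := (Finset.mem_bipartiteBelow _).mp hL
        obtain ⟨k, hk, j, rfl⟩ := (Finset.mem_filter.mp hLO).2
        refine Finset.mem_filter.mpr ⟨Finset.mem_filter.mpr ⟨Finset.mem_univ _, m⁻¹ * k,
          M.mul_mem (M.inv_mem hm) hk, j, ?_⟩, ?_⟩
        · simp only [pull, Submodule.map_span, Set.image_singleton, Matrix.mulVecLin_apply, Units.val_mul,
            Matrix.mulVec_mulVec]
        · intro v hv
          obtain ⟨w, hw, rfl⟩ := hv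
          have := hfix w hw
          rw [hxv, add_eq_left, smul_eq_zero] at this
          rcases this with e | e
          · rw [Matrix.mulVecLin_apply, show h (((m⁻¹ : GL (Fin 3) F) : Mat) *ᵥ w) (wVec u) =
              h ((m : Mat) *ᵥ (((m⁻¹ : GL (Fin 3) F) : Mat) *ᵥ w)) ((m : Mat) *ᵥ wVec u) from
                ((hMK hm).1 _ _).symm, gl_mulVec_inv]
            exact e
          · exfalso
            have e' := congrArg (fun z => ((m⁻¹ : GL (Fin 3) F) : Mat) *ᵥ z) e
            simp only [gl_inv_mulVec, Matrix.mulVec_zero] at e'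
            simpa [wVec] using congrFun e' 1
      · exact fun L _ L' _ e => Submodule.map_injective_of_injective (gl_mulVec_injective _) e
  have hT' := card_tr_le hF h2 hMK hmono hspread hzero
  rw [← hT, ← hO] at hT'
  have hOb : O.card * (q + 1) ≤ 4 * O.card + 12 * q := by omega
  -- the diagonal orbits of two images of axes
  let P := normOne q F ×ˢ normOne q F
  let dd : F × F → Fin 3 → F := fun p => ![p.1, p.2, (p.1 * p.2)⁻¹]
  have hdd : ∀ p ∈ P, ∀ l, dd p l ^ (q + 1) = 1 := fun p hp l => by
    obtain ⟨h1, h2'⟩ := Finset.mem_product.mp hp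
    fin_cases l
    · exact mem_normOne.mp h1
    · exact mem_normOne.mp h2'
    · exact norm_one_inv hF (norm_one_mul hF (mem_normOne.mp h1) (mem_normOne.mp h2'))
  have hddp : ∀ p ∈ P, ∏ l, dd p l = 1 := fun p hp => by
    obtain ⟨h1, h2'⟩ := Finset.mem_product.mp hp
    rw [Fin.prod_univ_three]
    show p.1 * p.2 * (p.1 * p.2)⁻¹ = 1
    exact mul_inv_cancel₀ (mul_ne_zero (norm_one_ne_zero hF (mem_normOne.mp h1))
      (norm_one_ne_zero hF (mem_normOne.mp h2')))
  let orb : Fin 3 → F × F → Submodule F (Fin 3 → F) := fun j p =>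
    Submodule.span F {fun l => dd p l * ((g : Mat) *ᵥ Pi.single j 1) l}
  have hg0 : ∀ j l, ((g : Mat) *ᵥ Pi.single j 1) l ≠ 0 := fun j l e => hgm (hzero g hg l j e)
  have horbO : ∀ j, ∀ p ∈ P, orb j p ∈ O := fun j p hp => by
    refine Finset.mem_filter.mpr ⟨Finset.mem_univ _, (guDiag (q := q) (dd p) (hdd p hp)).1 * g,
      M.mul_mem (hdiag (dd p) (hdd p hp) (hddp p hp)) hg, j, ?_⟩
    refine congrArg (fun z : Fin 3 → F => Submodule.span F {z}) ?_
    rw [Units.val_mul, ← Matrix.mulVec_mulVec]
    funext l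
    simp [guDiag, Matrix.mulVec_diagonal]
  have horb : ∀ j j', ∀ p ∈ P, ∀ p' ∈ P, orb j p = orb j' p' → ∃ c : F, ∀ l,
      c * (dd p l * ((g : Mat) *ᵥ Pi.single j 1) l) = dd p' l * ((g : Mat) *ᵥ Pi.single j' 1) l := by
    intro j j' p _ p' _ e
    obtain ⟨c, hc⟩ := Submodule.mem_span_singleton.mp
      (show (fun l => dd p' l * ((g : Mat) *ᵥ Pi.single j' 1) l) ∈ orb j p by
        rw [e]; exact Submodule.mem_span_singleton_self _)
    exact ⟨c, fun l => congrFun hc l⟩
  have hfib : ∀ j, ∀ p ∈ P, ∀ p' ∈ P, orb j p = orb j p' → ∃ c : F, c ^ (q + 1) = 1 ∧ c ^ 3 = 1 ∧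
      p' = (c * p.1, c * p.2) := by
    intro j p hp p' hp' e
    obtain ⟨c, hc⟩ := horb j j p hp p' hp' e
    have hc' : ∀ l, c * dd p l = dd p' l := fun l => mul_right_cancel₀ (hg0 j l) (by rw [mul_assoc]; exact hc l)
    refine ⟨c, ?_, ?_, ?_⟩
    · have := congrArg (· ^ (q + 1)) (hc' 0)
      simpa only [mul_pow, hdd p hp, hdd p' hp', mul_one] using this
    · have := hddp p' hp'
      simp only [← hc', Finset.prod_mul_distrib, hddp p hp, Finset.prod_const, Finset.card_univ, Fintype.card_fin,
        mul_one] at this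
      exact this
    · exact Prod.ext (hc' 0).symm (hc' 1).symm
  have hPcard : P.card = (q + 1) * (q + 1) := by rw [Finset.card_product, card_normOne hF]
  obtain ⟨p, k, hp, hcp, -, hpq⟩ := exists_q_eq_pow hF
  haveI := Fact.mk hp
  have hp2 : p = 2 := by
    have : ((2 : ℕ) : F) = 0 := by exact_mod_cast h2
    exact (Nat.prime_dvd_prime_iff_eq hp Nat.prime_two).mp ((CharP.cast_eq_zero_iff F p 2).mp this)
  subst hp2
  by_cases hq4 : q = 4
  · -- two orbits, each regular
    have hinj : ∀ j, Set.InjOn (orb j) P := fun j a ha b hb e => by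
      obtain ⟨c, hc1, hc3, rfl⟩ := hfib j a ha b hb e
      have := pow_gcd_eq_one.mpr ⟨hc1, hc3⟩
      rw [hq4, show Nat.gcd (4 + 1) 3 = 1 from rfl, pow_one] at this
      simp [this]
    have hdisj : Disjoint (P.image (orb 1)) (P.image (orb 2)) := by
      rw [Finset.disjoint_left]
      intro L h1 h2'
      obtain ⟨a, ha, rfl⟩ := Finset.mem_image.mp h1
      obtain ⟨b, hb, e⟩ := Finset.mem_image.mp h2'
      obtain ⟨c, hc⟩ := horb 1 2 a ha b hb e.symm
      -- the quotient of the two diagonal elements moves the second axis to the third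
      set δa := (guDiag (q := q) (dd a) (hdd a ha)).1 with hδa
      set δb := (guDiag (q := q) (dd b) (hdd b hb)).1 with hδb
      set n := g⁻¹ * (δb⁻¹ * δa) * g with hn
      have hnM : n ∈ M := M.mul_mem (M.mul_mem (M.inv_mem hg)
        (M.mul_mem (M.inv_mem (hdiag _ (hdd b hb) (hddp b hb))) (hdiag _ (hdd a ha) (hddp a ha)))) hg
      have hδv : ∀ (p : F × F) (hp : p ∈ P) v l,
          (((guDiag (q := q) (dd p) (hdd p hp)).1 : Mat) *ᵥ v) l = dd p l * v l := fun p hp v l => by
        simp [guDiag, Matrix.mulVec_diagonal]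
      have hn1 : c • ((n : Mat) *ᵥ Pi.single 1 1) = Pi.single 2 1 := by
        rw [hn, Units.val_mul, Units.val_mul, Units.val_mul, ← Matrix.mulVec_mulVec, ← Matrix.mulVec_mulVec,
          ← Matrix.mulVec_mulVec, ← Matrix.mulVec_smul, ← Matrix.mulVec_smul]
        have : c • ((δa : Mat) *ᵥ ((g : Mat) *ᵥ Pi.single 1 1)) = (δb : Mat) *ᵥ ((g : Mat) *ᵥ Pi.single 2 1) :=
          funext fun l => by rw [Pi.smul_apply, smul_eq_mul, hδv a ha, hδv b hb]; exact hc l
        rw [this, gl_inv_mulVec, gl_inv_mulVec]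
      have hc0 : c ≠ 0 := fun e => by
        rw [e, zero_smul] at hn1
        simpa using congrFun hn1 2
      have hn1' : (n : Mat) *ᵥ Pi.single 1 1 = c⁻¹ • Pi.single 2 1 := by
        rw [← hn1, smul_smul, inv_mul_cancel₀ hc0, one_smul]
      have hmon : IsMonom n := hspread n hnM 1 (by rw [hn1']; exact isAxis_smul_single _ _)
      choose π κ hκ hπ using fun l => exists_axis (hmon l) (gl_single_ne_zero n l)
      have hn5 : n ^ 5 = 1 := by
        have e5 : ∀ p (hp : p ∈ P), (guDiag (q := q) (dd p) (hdd p hp)).1 ^ 5 = 1 := fun p hp => by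
          apply Units.ext
          rw [Units.val_pow_eq_pow_val, Units.val_one]
          show Matrix.diagonal (dd p) ^ 5 = 1
          rw [Matrix.diagonal_pow, ← Matrix.diagonal_one]
          congr 1
          funext l
          have := hdd p hp l
          rw [hq4] at this
          exact this
        have hcomm : Commute δb⁻¹ δa := by
          refine Commute.inv_left (gl_ext fun v => funext fun l => ?_)
          rw [Units.val_mul, Units.val_mul, ← Matrix.mulVec_mulVec, ← Matrix.mulVec_mulVec, hδv b hb, hδv a ha, hδv a ha, hδv b hb]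
          ring
        rw [hn, show g⁻¹ * (δb⁻¹ * δa) * g = g⁻¹ * (δb⁻¹ * δa) * g⁻¹⁻¹ by rw [inv_inv], conj_pow, hcomm.mul_pow,
          inv_pow, e5 b hb, e5 a ha]
        simp
      have hπinj : Function.Injective π := fun l l' hll => by
        by_contra hne
        have e : ((n : Mat) *ᵥ (κ l' • Pi.single l 1 - κ l • Pi.single l' 1)) = (n : Mat) *ᵥ 0 := by
          rw [Matrix.mulVec_sub, Matrix.mulVec_smul, Matrix.mulVec_smul, hπ, hπ, hll, Matrix.mulVec_zero, smul_smul,
            smul_smul, mul_comm, sub_self]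
        simpa [hne, hκ l'] using congrFun (gl_mulVec_injective n e) l
      have hπ1 : π 1 = 2 := by
        by_contra hne
        have := congrFun ((hπ 1).symm.trans hn1') (π 1)
        simp [hne] at this
        exact hκ 1 this
      have hpow : ∀ (i : ℕ) (l : Fin 3), ∃ a : F, ((n ^ i : GL (Fin 3) F) : Mat) *ᵥ Pi.single l 1 =
          a • Pi.single (π^[i] l) 1 := by
        intro i
        induction i with
        | zero => exact fun l => ⟨1, by rw [pow_zero, Units.val_one, Matrix.one_mulVec, one_smul]; rfl⟩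
        | succ i ih =>
          intro l
          obtain ⟨a, ha'⟩ := ih l
          exact ⟨a * κ (π^[i] l), by
            rw [pow_succ', Units.val_mul, ← Matrix.mulVec_mulVec, ha', Matrix.mulVec_smul, hπ, smul_smul,
              Function.iterate_succ_apply']⟩
      obtain ⟨a', ha'⟩ := hpow 5 1
      rw [hn5, Units.val_one, Matrix.one_mulVec] at ha'
      have hσ : π^[5] 1 = 1 := by
        by_contra hne
        have := congrFun ha' 1
        rw [Pi.smul_apply, Pi.single_eq_same, Pi.single_eq_of_ne (Ne.symm hne), smul_zero] at this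
        exact one_ne_zero this
      have key : ∀ σ : Fin 3 → Fin 3, Function.Injective σ → σ 1 = 2 → σ^[5] 1 ≠ 1 := by decide
      exact key π hπinj hπ1 hσ
    have h50 : 50 ≤ O.card := by
      have e := Finset.card_union_of_disjoint hdisj
      rw [Finset.card_image_of_injOn (hinj 1), Finset.card_image_of_injOn (hinj 2), hPcard, hq4] at e
      refine le_trans (le_of_eq e.symm) (Finset.card_le_card ?_)
      intro L hL
      rcases Finset.mem_union.mp hL with hh | hh <;>
        (obtain ⟨a, ha, rfl⟩ := Finset.mem_image.mp hh; exact horbO _ a ha)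
    subst hq4
    omega
  · have h8 : 8 ≤ q := by
      rcases k with _ | _ | _ | k
      · simp at hpq; omega
      · simp at hpq; omega
      · simp at hpq; omega
      · rw [hpq]; exact le_trans (by norm_num) (Nat.pow_le_pow_right (by norm_num) (show 3 ≤ k + 3 by omega))
    have h3 : P.card ≤ 3 * (P.image (orb 1)).card := by
      refine Finset.card_le_mul_card_image P 3 fun L hL => ?_
      obtain ⟨a, ha, rfl⟩ := Finset.mem_image.mp hL
      refine le_trans (Finset.card_le_card (t := (Polynomial.nthRoots 3 (1 : F)).toFinset.image fun c =>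
        (c * a.1, c * a.2)) fun b hb => ?_) (Finset.card_image_le.trans ((Multiset.toFinset_card_le _).trans
          (Polynomial.card_nthRoots 3 1)))
      obtain ⟨hbP, hbL⟩ := Finset.mem_filter.mp hb
      obtain ⟨c, -, hc3, rfl⟩ := hfib 1 a ha b hbP hbL.symm
      exact Finset.mem_image.mpr ⟨c, by rw [Multiset.mem_toFinset, Polynomial.mem_nthRoots (by norm_num)]; exact hc3,
        rfl⟩
    have h4 : (P.image (orb 1)).card ≤ O.card := Finset.card_le_card fun L hL => by
      obtain ⟨a, ha, rfl⟩ := Finset.mem_image.mp hL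
      exact horbO _ a ha
    rw [hPcard] at h3
    nlinarith

end Cfsg.Agent.H2.SU3
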