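import Cfsg.Agent.H2.SU3.MonoRefl

set_option autoImplicit false
set_option linter.unusedSectionVars false

/-!
In odd characteristic an overgroup of the monomial subgroup of `SU(3, q)`, `q ≠ 5`, without mixed elements with a
zero entry consists of monomial elements: two involutions generate a dihedral group.
-/

namespace Cfsg.Agent.H2.SU3

open scoped Matrix Classical
open Cfsg.Agent.H98 Cfsg.Agent.H3 Cfsg.Agent.H60.SULow

/-- Two involutions are conjugate by an element of a subgroup containing them, or a third involution of it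
commutes with both. -/
theorem dihedral_cases {G : Type*} [Group G] [Finite G] {M : Subgroup G} {i x : G} (hi : i ∈ M) (hx : x ∈ M)
    (hii : i * i = 1) (hxx : x * x = 1) :
    (∃ k ∈ M, k * i * k⁻¹ = x) ∨ ∃ c ∈ M, c * c = 1 ∧ c ≠ 1 ∧ c * i = i * c ∧ c * x = x * c := by
  set z := i * x with hz
  have hinv : i * z * i⁻¹ = z⁻¹ := by
    rw [hz, inv_eq_of_mul_eq_one_right hii, _root_.mul_inv_rev, inv_eq_of_mul_eq_one_right hii,
      inv_eq_of_mul_eq_one_right hxx]
    simp [← mul_assoc, hii]
  have hpow : ∀ j : ℕ, i * z ^ j * i⁻¹ = (z ^ j)⁻¹ := fun j => by rw [← conj_pow, hinv, inv_pow]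
  have hzM : z ∈ M := M.mul_mem hi hx
  rcases Nat.even_or_odd (orderOf z) with ⟨m, hm⟩ | ⟨m, hm⟩
  · right
    have hcc : z ^ m * z ^ m = 1 := by rw [← pow_add, ← hm, pow_orderOf_eq_one]
    have h1 : z ^ m * i = i * z ^ m := by
      have e := hpow m
      rw [inv_eq_of_mul_eq_one_right hcc, mul_inv_eq_iff_eq_mul] at e
      exact e.symm
    refine ⟨z ^ m, M.pow_mem hzM m, hcc, fun e => ?_, h1, ?_⟩
    · have hpos := orderOf_pos z
      have := Nat.le_of_dvd (by omega) (orderOf_dvd_of_pow_eq_one e)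
      omega
    · have hx' : x = i * z := by rw [hz, ← mul_assoc, hii, one_mul]
      rw [hx', ← mul_assoc, h1, mul_assoc, ← pow_succ, mul_assoc, ← pow_succ']
  · left
    refine ⟨(z ^ (m + 1))⁻¹, M.inv_mem (M.pow_mem hzM _), ?_⟩
    rw [inv_inv, ← hpow (m + 1)]
    have e : i * i⁻¹ = 1 := mul_inv_cancel i
    calc i * z ^ (m + 1) * i⁻¹ * i * z ^ (m + 1) = i * (z ^ (m + 1) * z ^ (m + 1)) := by group
      _ = i * z := by rw [← pow_add, show m + 1 + (m + 1) = 2 * m + 1 + 1 by ring, ← hm, pow_succ,
          pow_orderOf_eq_one, one_mul]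
      _ = x := by rw [hz, ← mul_assoc, hii, one_mul]

variable {F : Type*} [Field F] [Fintype F] {q : ℕ}

local notation "Mat" => Matrix (Fin 3) (Fin 3) F
local notation "h" => Cfsg.hermForm 3 F q
local notation "G₁" => Cfsg.GU 3 F q ⊓ Cfsg.Geo.specialLinear (Fin 3) F

variable (hF : Fintype.card F = q ^ 2) {M : Subgroup (GL (Fin 3) F)}
include hF

/-- A conjugate involution has a zero in its vector or all norms equal. -/
theorem norms_eq (h2 : (2 : F) ≠ 0) (hMK : M ≤ G₁) (hdiag : HasDiag q M) (hmono : HasMono q M)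
    (hspread : Spreading M)
    (hzero : ∀ g ∈ M, ∀ c d : Fin 3, ((g : GL (Fin 3) F) : Mat).mulVec (Pi.single d 1) c = 0 → IsMonom g)
    {g : GL (Fin 3) F} (hg : g ∈ M) {u : F} (hu : u ^ (q + 1) = 1) (a : Fin 3) {r : Fin 3 → F}
    (hr : r = (g : Mat) *ᵥ wVec u) (hall : ∀ l, r l ≠ 0) {b c : Fin 3} (hab : a ≠ b) (hca : c ≠ a) (hcb : c ≠ b) :
    r b ^ (q + 1) = r c ^ (q + 1) := by
  have hq0 : q ≠ 0 := q_ne_zero' hF
  obtain ⟨y, hyG, hym, hyy, hyv⟩ := exists_refl hF hu
  have hyM : y ∈ M := hmono y hyG hym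
  set x := g * y * g⁻¹ with hx
  have hxM : x ∈ M := M.mul_mem (M.mul_mem hg hyM) (M.inv_mem hg)
  have hxx : x * x = 1 := by
    rw [hx, show g * y * g⁻¹ * (g * y * g⁻¹) = g * (y * y) * g⁻¹ by group, hyy, mul_one, mul_inv_cancel]
  have hxv : ∀ v, (x : Mat) *ᵥ v = -v + h v r • r := fun v => by rw [hr]; exact conj_refl_apply hF (hMK hg).1 hyv v
  have hrr : h r r = 2 := by
    rw [hr, show h ((g : Mat) *ᵥ wVec u) ((g : Mat) *ᵥ wVec u) = h (wVec u) (wVec u) from (hMK hg).1 _ _,
      herm_wVec hF]
    simp only [wVec, Matrix.cons_val, Matrix.cons_val_one, Matrix.cons_val_zero, norm_one_conj hF hu]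
    exact one_add_one_eq_two
  let δ : Fin 3 → F := fun l => if l = a then 1 else -1
  have hδ : ∀ l, δ l ^ (q + 1) = 1 := fun l => by
    simp only [δ]; split_ifs
    · exact one_pow _
    · rw [pow_succ', ← conjQ_apply hF, map_neg, map_one]; ring
  have hδp : ∏ l, δ l = 1 := by
    have : (Finset.univ : Finset (Fin 3)) = {a, b, c} := by
      refine (Finset.eq_univ_iff_forall.mpr fun l => ?_).symm
      rcases fin3_cases a b c l hab hca hcb with rfl | rfl | rfl <;> simp
    rw [this, Finset.prod_insert (by simp [hab, hca.symm]), Finset.prod_insert (by simp [hcb.symm]),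
      Finset.prod_singleton]
    simp [δ, hab.symm, hca]
  set i := (guDiag (q := q) δ hδ).1 with hi
  have hiv : ∀ (v : Fin 3 → F) l, ((i : Mat) *ᵥ v) l = δ l * v l := fun v l => by
    simp [i, guDiag, Matrix.mulVec_diagonal]
  have hiM : i ∈ M := hdiag δ hδ hδp
  have hii : i * i = 1 := gl_ext fun v => funext fun l => by
    rw [Units.val_mul, ← Matrix.mulVec_mulVec, hiv, hiv, Units.val_one, Matrix.one_mulVec, ← mul_assoc]
    simp only [δ]; split_ifs <;> ring
  rcases dihedral_cases hiM hxM hii hxx with ⟨k, hk, hkx⟩ | ⟨e, heM, hee, he1, hei, hex⟩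
  · exfalso
    set v₀ := (k : Mat) *ᵥ Pi.single a 1 with hv₀
    have hfix : (x : Mat) *ᵥ v₀ = v₀ := by
      rw [← hkx, hv₀, Units.val_mul, Units.val_mul, ← Matrix.mulVec_mulVec, ← Matrix.mulVec_mulVec,
        gl_inv_mulVec]
      congr 1
      funext l
      rw [hiv]
      by_cases hl : l = a
      · subst hl; simp [δ]
      · simp [hl]
    rw [hxv, neg_add_eq_iff_eq_add, ← two_smul F v₀] at hfix
    have hne : h v₀ r ≠ 0 := fun e => by
      rw [e, zero_smul, eq_comm, smul_eq_zero] at hfix
      exact (gl_single_ne_zero k a) (hfix.resolve_left h2)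
    have hvr : v₀ = (h v₀ r / 2) • r := by
      rw [div_eq_inv_mul, mul_smul, hfix, smul_smul, inv_mul_cancel₀ h2, one_smul]
    have he : (((g⁻¹ * k : GL (Fin 3) F)) : Mat) *ᵥ Pi.single a 1 = (h v₀ r / 2) • wVec u := by
      rw [Units.val_mul, ← Matrix.mulVec_mulVec, ← hv₀]
      conv_lhs => rw [hvr, hr, Matrix.mulVec_smul, gl_inv_mulVec]
      rw [hr]
    have hmem := M.mul_mem (M.inv_mem hg) hk
    have hmon := hzero _ hmem 0 a (by rw [he]; simp [wVec])
    have hax := hmon a
    rw [he] at hax
    have h12 := hax 1 2 (by simp [wVec, hne, h2]) (by simp [wVec, hne, h2, norm_one_ne_zero hF hu])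
    exact absurd h12 (by decide)
  -- the third involution fixes the axis
  have hea : ∃ ε : F, (e : Mat) *ᵥ Pi.single a 1 = ε • Pi.single a 1 := by
    refine ⟨((e : Mat) *ᵥ Pi.single a 1) a, funext fun l => ?_⟩
    by_cases hl : l = a
    · subst hl; simp
    have e1 : (i : Mat) *ᵥ ((e : Mat) *ᵥ Pi.single a 1) = (e : Mat) *ᵥ ((i : Mat) *ᵥ Pi.single a 1) := by
      rw [Matrix.mulVec_mulVec, Matrix.mulVec_mulVec, ← Units.val_mul, ← Units.val_mul, hei]
    have e2 : (i : Mat) *ᵥ Pi.single a 1 = Pi.single a 1 := funext fun l => by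
      rw [hiv]; by_cases hl : l = a
      · subst hl; simp [δ]
      · simp [hl]
    rw [e2] at e1
    have := congrFun e1 l
    rw [hiv] at this
    simp only [δ, if_neg hl] at this
    have h3 : (2 : F) * ((e : Mat) *ᵥ Pi.single a 1) l = 0 := by linear_combination -this
    rw [(mul_eq_zero.mp h3).resolve_left h2]
    simp [hl]
  obtain ⟨ε, hε⟩ := hea
  have hmon : IsMonom e := hspread e heM a (by rw [hε]; exact isAxis_smul_single ε a)
  choose π κ hκ hπ using fun l => exists_axis (hmon l) (gl_single_ne_zero e l)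
  have heI : ∀ v w, h ((e : Mat) *ᵥ v) ((e : Mat) *ᵥ w) = h v w := (hMK heM).1
  have hπinj : Function.Injective π := fun l l' hll => by
    by_contra hne
    have := heI (Pi.single l 1) (Pi.single l' 1)
    rw [hπ, hπ, hll, hermForm_smul_left hF, hermForm_smul_right hF, herm_single_right hF, herm_single_right hF] at this
    simp only [Pi.single_eq_same, mul_one, Pi.single_eq_of_ne (Ne.symm hne)] at this
    exact mul_ne_zero (hκ l) (pow_ne_zero q (hκ l')) this
  have hπa : π a = a := by
    by_contra hne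
    have := congrFun ((hπ a).symm.trans hε) (π a)
    simp [hne] at this
    exact hκ a this
  have hκn : ∀ l, κ l ^ (q + 1) = 1 := fun l => by
    have := heI (Pi.single l 1) (Pi.single l 1)
    rw [hπ, hermForm_smul_left hF, hermForm_smul_right hF, herm_single_right hF, herm_single_right hF,
      Pi.single_eq_same, Pi.single_eq_same, mul_one] at this
    rw [pow_succ']; exact this
  have hev : ∀ v, (e : Mat) *ᵥ v = v a • ((e : Mat) *ᵥ Pi.single a 1) + v b • ((e : Mat) *ᵥ Pi.single b 1) +
      v c • ((e : Mat) *ᵥ Pi.single c 1) := fun v => by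
    rw [← Matrix.mulVec_smul, ← Matrix.mulVec_smul, ← Matrix.mulVec_smul, ← Matrix.mulVec_add, ← Matrix.mulVec_add]
    congr 1
    funext l
    rcases fin3_cases a b c l hab hca hcb with rfl | rfl | rfl <;>
      simp [hab, hab.symm, hca, hca.symm, hcb, hcb.symm]
  have hxe : ∀ v, (x : Mat) *ᵥ ((e : Mat) *ᵥ v) = (e : Mat) *ᵥ ((x : Mat) *ᵥ v) := fun v => by
    rw [Matrix.mulVec_mulVec, Matrix.mulVec_mulVec, ← Units.val_mul, ← Units.val_mul, hex]
  have her : ∃ lam : F, (e : Mat) *ᵥ r = lam • r := by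
    refine ⟨h ((e : Mat) *ᵥ r) r / 2, ?_⟩
    have e1 := hxe r
    rw [hxv r, hrr, hxv, show -r + (2 : F) • r = r by module, neg_add_eq_iff_eq_add, ← two_smul F] at e1
    rw [div_eq_inv_mul, mul_smul, e1, smul_smul, inv_mul_cancel₀ h2, one_smul]
  obtain ⟨lam, hlam⟩ := her
  rcases eq_or_ne (π b) b with hbb | hbb
  · -- a diagonal involution: scalar, as the vector has no zero
    exfalso
    have hcc : π c = c := by
      rcases fin3_cases a b c (π c) hab hca hcb with h1 | h1 | h1
      · exact absurd (hπinj (h1.trans hπa.symm)) hca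
      · exact absurd (hπinj (h1.trans hbb.symm)) hcb
      · exact h1
    have hdiagv : ∀ v l, ((e : Mat) *ᵥ v) l = κ l * v l := fun v l => by
      rw [hev, hπ a, hπ b, hπ c, hπa, hbb, hcc]
      rcases fin3_cases a b c l hab hca hcb with rfl | rfl | rfl <;>
        simp [hab, hab.symm, hca, hca.symm, hcb, hcb.symm, mul_comm]
    have heq : ∀ l, κ l = lam := fun l => by
      have := congrFun hlam l
      rw [hdiagv, Pi.smul_apply, smul_eq_mul] at this
      exact mul_right_cancel₀ (hall l) this
    have hlam2 : lam * lam = 1 := by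
      have h1 := congrArg (fun z : GL (Fin 3) F => ((z : Mat) *ᵥ r) a) hee
      simp only [Units.val_mul, ← Matrix.mulVec_mulVec, hdiagv, heq, Units.val_one, Matrix.one_mulVec] at h1
      exact mul_right_cancel₀ (hall a) (by rw [mul_assoc, h1, one_mul])
    have hdet : lam ^ 3 = 1 := by
      have hM : (e : Mat) = lam • (1 : Mat) := Matrix.ext_of_mulVec_single fun j => funext fun l => by
        rw [hdiagv, heq, Matrix.smul_mulVec, Matrix.one_mulVec]; rfl
      have := Matrix.GeneralLinearGroup.val_det_apply e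
      rw [MonoidHom.mem_ker.mp (hMK heM).2, Units.val_one, hM, Matrix.det_smul, Fintype.card_fin, Matrix.det_one,
        mul_one] at this
      exact this.symm
    have hl1 : lam = 1 := by rw [pow_three, hlam2, mul_one] at hdet; exact hdet
    exact he1 (gl_ext fun v => funext fun l => by
      rw [hdiagv, heq, hl1, one_mul, Units.val_one, Matrix.one_mulVec])
  · have hbc : π b = c := by
      rcases fin3_cases a b c (π b) hab hca hcb with h1 | h1 | h1
      · exact absurd (hπinj (h1.trans hπa.symm)) hab.symm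
      · exact absurd h1 hbb
      · exact h1
    have hcb' : π c = b := by
      rcases fin3_cases a b c (π c) hab hca hcb with h1 | h1 | h1
      · exact absurd (hπinj (h1.trans hπa.symm)) hca
      · exact h1
      · exact absurd (hπinj (h1.trans hbc.symm)) hcb
    have hcomp : κ a * r a = lam * r a ∧ κ c * r c = lam * r b ∧ κ b * r b = lam * r c := by
      refine ⟨?_, ?_, ?_⟩
      · have := congrFun hlam a
        rw [hev, hπ a, hπ b, hπ c, hπa, hbc, hcb'] at this
        simp [hab, hca.symm] at this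
        linear_combination this
      · have := congrFun hlam b
        rw [hev, hπ a, hπ b, hπ c, hπa, hbc, hcb'] at this
        simp [hab.symm, hcb.symm] at this
        linear_combination this
      · have := congrFun hlam c
        rw [hev, hπ a, hπ b, hπ c, hπa, hbc, hcb'] at this
        simp [hca, hcb] at this
        linear_combination this
    have hlamn : lam ^ (q + 1) = 1 := by rw [← mul_right_cancel₀ (hall a) hcomp.1]; exact hκn a
    have := congrArg (· ^ (q + 1)) hcomp.2.2
    simpa only [mul_pow, hκn b, hlamn, one_mul] using this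

/-- In odd characteristic there is no mixed element. -/
theorem no_mixed_odd (h2 : (2 : F) ≠ 0) (h5 : q ≠ 5) (hMK : M ≤ G₁) (hdiag : HasDiag q M) (hmono : HasMono q M)
    (hspread : Spreading M)
    (hzero : ∀ g ∈ M, ∀ c d : Fin 3, ((g : GL (Fin 3) F) : Mat).mulVec (Pi.single d 1) c = 0 → IsMonom g)
    {g : GL (Fin 3) F} (hg : g ∈ M) : IsMonom g := by
  by_contra hgm
  have hq0 : q ≠ 0 := q_ne_zero' hF
  set A := (g : Mat) *ᵥ Pi.single 1 1 with hA
  set B := (g : Mat) *ᵥ Pi.single 2 1 with hB
  have hB0 : ∀ l, B l ≠ 0 := fun l e => hgm (hzero g hg l 2 e)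
  have hA0 : ∀ l, A l ≠ 0 := fun l e => hgm (hzero g hg l 1 e)
  have hr : ∀ u, (g : Mat) *ᵥ wVec u = A + u • B := fun u => by
    rw [hA, hB, ← Matrix.mulVec_smul, ← Matrix.mulVec_add]
    congr 1
    funext l
    fin_cases l <;> simp [wVec]
  let good : F → Prop := fun u => ∀ l, A l + u * B l ≠ 0
  have hgood : ∀ u ∈ normOne q F, good u → ∀ b c, (A b + u * B b) ^ (q + 1) = (A c + u * B c) ^ (q + 1) := by
    intro u hu hgd b c
    by_cases hbc : b = c
    · rw [hbc]
    obtain ⟨a, hab, hac⟩ := exists_third b c hbc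
    have := norms_eq hF h2 hMK hdiag hmono hspread hzero hg (mem_normOne.mp hu) a rfl
      (fun l => by rw [hr]; exact hgd l) hab hac.symm (Ne.symm hbc)
    rw [hr] at this
    simpa using this
  have hbad : ((normOne q F).filter fun u => ¬ good u).card ≤ 3 := by
    refine le_trans (Finset.card_le_card (t := Finset.univ.image fun l => -A l / B l) fun u hu => ?_)
      (Finset.card_image_le.trans (by simp))
    obtain ⟨l, hl⟩ := not_forall_not.mp (Finset.mem_filter.mp hu).2
    rw [Finset.mem_image]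
    refine ⟨l, Finset.mem_univ l, ?_⟩
    rw [div_eq_iff (hB0 l)]; linear_combination -hl
  have hN : ∀ u, u ^ (q + 1) = 1 → ∀ l, (A l + u * B l) ^ (q + 1) =
      A l ^ (q + 1) + B l ^ (q + 1) + (u * (A l ^ q * B l) + u ^ q * (A l * B l ^ q)) := fun u hu l => by
    rw [pow_succ', pow_succ' (A l), pow_succ' (B l), add_pow_q hF, mul_pow]
    linear_combination (B l * B l ^ q) * norm_one_conj hF hu
  have hsum : h A B = 0 := by
    rw [hA, hB, show h ((g : Mat) *ᵥ Pi.single 1 1) ((g : Mat) *ᵥ Pi.single 2 1) =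
      h (Pi.single 1 1) (Pi.single 2 1) from (hMK hg).1 _ _, herm_single_right hF]
    simp
  by_cases hz : ∀ p, A p ^ q * B p = A 0 ^ q * B 0
  · -- equal products: characteristic three, and no good scalar
    have h3 : (3 : F) = 0 := by
      have e : ∀ p, A p * B p ^ q = A 0 * B 0 ^ q := fun p => by
        have := congrArg (· ^ q) (hz p)
        simpa only [mul_pow, pow_q_pow_q hF] using this
      rw [Cfsg.hermForm, Fin.sum_univ_three, e 1, e 2] at hsum
      exact (mul_eq_zero.mp (show (3 : F) * (A 0 * B 0 ^ q) = 0 by linear_combination hsum)).resolve_right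
        (mul_ne_zero (hA0 0) (pow_ne_zero q (hB0 0)))
    have hnone : ∀ u ∈ normOne q F, ¬ good u := fun u hu hgd => by
      have hrr : h ((g : Mat) *ᵥ wVec u) ((g : Mat) *ᵥ wVec u) = 2 := by
        rw [show h ((g : Mat) *ᵥ wVec u) ((g : Mat) *ᵥ wVec u) = h (wVec u) (wVec u) from (hMK hg).1 _ _,
          herm_wVec hF]
        simp only [wVec, Matrix.cons_val, Matrix.cons_val_one, Matrix.cons_val_zero,
          norm_one_conj hF (mem_normOne.mp hu)]
        exact one_add_one_eq_two
      rw [hr, Cfsg.hermForm, Fin.sum_univ_three] at hrr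
      simp only [Pi.add_apply, Pi.smul_apply, smul_eq_mul, ← pow_succ'] at hrr
      rw [hgood u hu hgd 1 0, hgood u hu hgd 2 0] at hrr
      exact h2 (by linear_combination ((A 0 + u * B 0) ^ (q + 1)) * h3 - hrr)
    have := (Finset.card_le_card (s := normOne q F) fun u hu => Finset.mem_filter.mpr ⟨hu, hnone u hu⟩).trans hbad
    rw [card_normOne hF] at this
    have := two_le_q hF
    have hq2 : q = 2 := by omega
    subst hq2
    have h9 : ((Fintype.card F : ℕ) : F) = 0 := Nat.cast_card_eq_zero F
    rw [hF] at h9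
    push_cast at h9
    exact h2 (pow_eq_zero_iff (n := 2) (by norm_num) |>.mp (show (2 : F) ^ 2 = 0 by linear_combination h9))
  push Not at hz
  obtain ⟨p, hp⟩ := hz
  set z := A p ^ q * B p - A 0 ^ q * B 0 with hzdef
  set γ := A p ^ (q + 1) + B p ^ (q + 1) - (A 0 ^ (q + 1) + B 0 ^ (q + 1)) with hγ
  have hz0 : z ≠ 0 := sub_ne_zero.mpr hp
  have hroot : ((normOne q F).filter fun u => good u).card ≤ 2 := by
    refine le_trans (Finset.card_le_card (t := (Polynomial.C z * Polynomial.X ^ 2 + Polynomial.C γ * Polynomial.X +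
      Polynomial.C (z ^ q)).roots.toFinset) fun u hu => ?_) ((Multiset.toFinset_card_le _).trans ?_)
    · rw [Finset.mem_filter] at hu
      have hu1 := mem_normOne.mp hu.1
      have e := hgood u hu.1 hu.2 p 0
      rw [hN u hu1, hN u hu1] at e
      have hzq : z ^ q = A p * B p ^ q - A 0 * B 0 ^ q := by
        rw [hzdef, ← conjQ_apply hF, map_sub, map_mul, map_mul, conjQ_apply hF, conjQ_apply hF, conjQ_apply hF,
          conjQ_apply hF, pow_q_pow_q hF, pow_q_pow_q hF]
      rw [Multiset.mem_toFinset, Polynomial.mem_roots']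
      refine ⟨fun h0 => hz0 ?_, ?_⟩
      · have := congrArg (fun P => Polynomial.coeff P 2) h0
        simpa [Polynomial.coeff_X_pow, Polynomial.coeff_X, Polynomial.coeff_C, ← map_pow] using this
      · simp only [Polynomial.IsRoot, Polynomial.eval_add, Polynomial.eval_mul, Polynomial.eval_C,
          Polynomial.eval_pow, Polynomial.eval_X]
        rw [hzq, hγ, hzdef]
        linear_combination u * e - (A p * B p ^ q - A 0 * B 0 ^ q) * norm_one_conj hF hu1
    · refine (Polynomial.card_roots' _).trans ?_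
      exact Polynomial.natDegree_quadratic_le
  have h5' := Finset.card_filter_add_card_filter_not (s := normOne q F) (fun u => good u)
  rw [card_normOne hF] at h5'
  -- only `q = 3` is left
  have hq3 : q = 3 := by
    have hodd : ¬ 2 ∣ q := fun ⟨k, hk⟩ => by
      obtain ⟨p', j, hp', hcp, hj, hpq⟩ := exists_q_eq_pow hF
      haveI := Fact.mk hp'
      have : p' = 2 := ((Nat.prime_dvd_prime_iff_eq Nat.prime_two hp').mp
        (Nat.prime_two.dvd_of_dvd_pow (show 2 ∣ p' ^ j from hpq ▸ ⟨k, hk⟩))).symm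
      subst this
      exact h2 (by exact_mod_cast CharP.cast_eq_zero F 2)
    have := two_le_q hF
    omega
  have h3 : (3 : F) = 0 := by
    have h9 : ((Fintype.card F : ℕ) : F) = 0 := Nat.cast_card_eq_zero F
    rw [hF, hq3] at h9
    push_cast at h9
    exact pow_eq_zero_iff (n := 2) (by norm_num) |>.mp (show (3 : F) ^ 2 = 0 by linear_combination h9)
  have hnone : ∀ u ∈ normOne q F, ¬ good u := fun u hu hgd => by
    have hrr : h ((g : Mat) *ᵥ wVec u) ((g : Mat) *ᵥ wVec u) = 2 := by
      rw [show h ((g : Mat) *ᵥ wVec u) ((g : Mat) *ᵥ wVec u) = h (wVec u) (wVec u) from (hMK hg).1 _ _,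
        herm_wVec hF]
      simp only [wVec, Matrix.cons_val, Matrix.cons_val_one, Matrix.cons_val_zero,
        norm_one_conj hF (mem_normOne.mp hu)]
      exact one_add_one_eq_two
    rw [hr, Cfsg.hermForm, Fin.sum_univ_three] at hrr
    simp only [Pi.add_apply, Pi.smul_apply, smul_eq_mul, ← pow_succ'] at hrr
    rw [hgood u hu hgd 1 0, hgood u hu hgd 2 0] at hrr
    exact h2 (by linear_combination ((A 0 + u * B 0) ^ (q + 1)) * h3 - hrr)
  have := (Finset.card_le_card (s := normOne q F) fun u hu => Finset.mem_filter.mpr ⟨hu, hnone u hu⟩).trans hbad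
  rw [card_normOne hF] at this
  omega

end Cfsg.Agent.H2.SU3
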