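import Cfsg.Agent.H2.SU3.MonoBase

set_option autoImplicit false
set_option linter.unusedSectionVars false

/-!
The monomial involutions `v ↦ -v + h(v,w) w`, `w = (0, 1, u)`, and their conjugates.
-/

namespace Cfsg.Agent.H2.SU3

open scoped Matrix Classical
open Cfsg.Agent.H98 Cfsg.Agent.H3 Cfsg.Agent.H60.SULow

variable {F : Type*} [Field F] [Fintype F] {q : ℕ}

local notation "Mat" => Matrix (Fin 3) (Fin 3) F
local notation "h" => Cfsg.hermForm 3 F q
local notation "G₁" => Cfsg.GU 3 F q ⊓ Cfsg.Geo.specialLinear (Fin 3) F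

/-- The vector of a monomial involution. -/
def wVec (u : F) : Fin 3 → F := ![0, 1, u]

/-- The matrix of a monomial involution. -/
def reflMat (q : ℕ) (u : F) : Matrix (Fin 3) (Fin 3) F := !![-1, 0, 0; 0, 0, u ^ q; 0, u, 0]

theorem reflMat_mulVec (u : F) (v : Fin 3 → F) : reflMat q u *ᵥ v = ![-v 0, u ^ q * v 2, u * v 1] := by
  funext l
  fin_cases l <;> simp [reflMat, Matrix.mulVec, dotProduct, Fin.sum_univ_three]

variable (hF : Fintype.card F = q ^ 2)
include hF

theorem herm_wVec (u : F) (v : Fin 3 → F) : h v (wVec u) = v 1 + v 2 * u ^ q := by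
  rw [Cfsg.hermForm, Fin.sum_univ_three]
  simp [wVec, zero_pow (q_ne_zero' hF)]

theorem reflMat_apply {u : F} (hu : u ^ (q + 1) = 1) (v : Fin 3 → F) :
    reflMat q u *ᵥ v = -v + h v (wVec u) • wVec u := by
  have huu := norm_one_conj hF hu
  rw [reflMat_mulVec, herm_wVec hF]
  funext l
  fin_cases l <;> simp [wVec] <;>
    first | ring1 | linear_combination -(v 2) * huu | linear_combination (v 2) * huu

/-- The monomial involution in `SU`. -/
theorem exists_refl {u : F} (hu : u ^ (q + 1) = 1) :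
    ∃ y ∈ G₁, IsMonom y ∧ y * y = 1 ∧ ∀ v, (y : Mat) *ᵥ v = -v + h v (wVec u) • wVec u := by
  have huu := norm_one_conj hF hu
  have hsq : reflMat q u * reflMat q u = 1 := Matrix.ext_of_mulVec_single fun j => by
    rw [← Matrix.mulVec_mulVec, Matrix.one_mulVec, reflMat_mulVec, reflMat_mulVec]
    funext l
    fin_cases l <;> simp
    · rw [← mul_assoc, mul_comm (u ^ q) u, huu, one_mul]
    · rw [← mul_assoc, huu, one_mul]
  let y : GL (Fin 3) F := ⟨reflMat q u, reflMat q u, hsq, hsq⟩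
  refine ⟨y, ⟨mem_GU_iff.2 fun a b => ?_, MonoidHom.mem_ker.mpr (Units.ext ?_)⟩, fun l => ?_, Units.ext hsq,
    reflMat_apply hF hu⟩
  · change h (reflMat q u *ᵥ a) (reflMat q u *ᵥ b) = _
    rw [reflMat_mulVec, reflMat_mulVec, Cfsg.hermForm, Cfsg.hermForm, Fin.sum_univ_three, Fin.sum_univ_three]
    simp only [Matrix.cons_val, Matrix.cons_val_zero, Matrix.cons_val_one, mul_pow, pow_q_pow_q hF]
    rw [show (-b 0) ^ q = -(b 0 ^ q) by rw [← conjQ_apply hF, map_neg, conjQ_apply hF]]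
    linear_combination (a 2 * b 2 ^ q + a 1 * b 1 ^ q) * huu
  · change (reflMat q u).det = 1
    rw [Matrix.det_fin_three]
    simp [reflMat, mul_comm, huu]
  · change IsAxis (reflMat q u *ᵥ Pi.single l 1)
    rw [reflMat_mulVec]
    intro i j hi hj
    fin_cases l <;> fin_cases i <;> fin_cases j <;> simp at hi hj ⊢

/-- A conjugate of a monomial involution. -/
theorem conj_refl_apply {g y : GL (Fin 3) F} (hg : g ∈ Cfsg.GU 3 F q) {w : Fin 3 → F}
    (hy : ∀ v, (y : Mat) *ᵥ v = -v + h v w • w) (v : Fin 3 → F) :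
    ((g * y * g⁻¹ : GL (Fin 3) F) : Mat) *ᵥ v = -v + h v ((g : Mat) *ᵥ w) • ((g : Mat) *ᵥ w) := by
  have hgI : ∀ a b, h ((g : Mat) *ᵥ a) ((g : Mat) *ᵥ b) = h a b := hg
  rw [Units.val_mul, Units.val_mul, ← Matrix.mulVec_mulVec, ← Matrix.mulVec_mulVec, hy, Matrix.mulVec_add,
    Matrix.mulVec_neg, Matrix.mulVec_smul, gl_mulVec_inv, ← hgI _ w, gl_mulVec_inv]

end Cfsg.Agent.H2.SU3
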