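import Cfsg.Agent.H2.SU3.MonoOdd
import Cfsg.Agent.H2.SU3.MonoEven

set_option autoImplicit false
set_option linter.unusedSectionVars false

/-!
The monomial subgroup of `SU(3, q)` is maximal for `q ≠ 5`.
-/

namespace Cfsg.Agent.H2.SU3

open scoped Matrix Classical
open Cfsg.Agent.H98 Cfsg.Agent.H3 Cfsg.Agent.H60.SULow

variable {F : Type*} [Field F] [Fintype F] {q : ℕ}

local notation "Mat" => Matrix (Fin 3) (Fin 3) F
local notation "h" => Cfsg.hermForm 3 F q
local notation "G₁" => Cfsg.GU 3 F q ⊓ Cfsg.Geo.specialLinear (Fin 3) F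

/-- An element of `SU(3, q)` which moves the axes. -/
theorem std_proper₃ (hF : Fintype.card F = q ^ 2) (hq : 3 ≤ q) (idx : Fin 3 × Fin 1 ≃ Fin 3) :
    ∃ x ∈ G₁, x ∉ Cfsg.Geo.decompositionStabilizer (stdDec F idx) ⊓ G₁ := by
  have hf := Herm.isUnitary_std (n := 3) hF
  have hq0 : q ≠ 0 := q_ne_zero' hF
  let S : Finset F := insert 0 (Polynomial.nthRoots (q + 1) (-1 : F)).toFinset
  obtain ⟨a, -, ha⟩ := Finset.exists_mem_notMem_of_card_lt_card (s := S) (t := Finset.univ) (by
    refine lt_of_le_of_lt ((Finset.card_insert_le _ _).trans (Nat.add_le_add_right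
      ((Multiset.toFinset_card_le _).trans (Polynomial.card_nthRoots _ _)) 1)) ?_
    rw [Finset.card_univ, hF]
    nlinarith)
  simp only [S, Finset.mem_insert, Multiset.mem_toFinset, Polynomial.mem_nthRoots (Nat.succ_pos q), not_or] at ha
  obtain ⟨b, hb⟩ := exists_norm_eq hF (μ := -1 - a ^ (q + 1)) (by
    rw [← conjQ_apply hF, map_sub, map_neg, map_one, conjQ_apply hF, norm_pow_q hF])
  have hb0 : b ≠ 0 := fun e => ha.2 (by
    rw [e, zero_pow (Nat.succ_ne_zero q)] at hb
    show a ^ (q + 1) = -1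
    linear_combination hb)
  obtain ⟨ζ, hζ0, hζ⟩ := Herm.exists_skew hf
  set v : Fin 3 → F := ![1, a, b] with hv
  have hvv : h v v = 0 := by
    rw [Cfsg.hermForm, Fin.sum_univ_three]
    simp only [hv, Matrix.cons_val_zero, Matrix.cons_val_one, Matrix.cons_val, one_pow, mul_one, ← pow_succ', hb]
    ring
  refine ⟨Herm.uT hf hvv ζ, Herm.uT_mem_su hF hvv hζ, fun hh => ?_⟩
  obtain ⟨τ, hτ⟩ := hh.1
  have himg : (Herm.uT hf hvv ζ : Mat) *ᵥ Pi.single 0 1 ∈ stdDec F idx (τ (idx.symm 0).1) := by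
    rw [← hτ]
    exact ⟨_, single_mem_stdDec idx 0 1, by simp⟩
  rw [Herm.uT_mulVec, hermForm_single_left, one_mul] at himg
  have key : ∀ l : Fin 3, l ≠ 0 → v l ≠ 0 → (idx.symm l).1 = τ (idx.symm 0).1 := by
    intro l hl hvl
    by_contra hne
    have := himg l hne
    rw [Pi.add_apply, Pi.smul_apply, smul_eq_mul, Pi.single_eq_of_ne hl, zero_add, mul_eq_zero] at this
    exact hvl (this.resolve_left (by simp [hv, hζ0]))
  have h1 := key 1 (by decide) (by simpa [hv] using ha.1)
  have h2 := key 2 (by decide) (by simpa [hv] using hb0)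
  have h3 : idx.symm 1 = idx.symm 2 := Prod.ext (h1.trans h2.symm) (Subsingleton.elim _ _)
  exact absurd (idx.symm.injective h3) (by decide)

/-- The stabiliser of the coordinate decomposition is maximal. -/
theorem monomial_std_maximal (hF : Fintype.card F = q ^ 2) (hq : 3 ≤ q) (h5 : q ≠ 5)
    (idx : Fin 3 × Fin 1 ≃ Fin 3) :
    Cfsg.Geo.IsMaximalIn G₁ (Cfsg.Geo.decompositionStabilizer (stdDec F idx) ⊓ G₁) := by
  refine isMaximalIn_of inf_le_right (std_proper₃ hF hq idx) fun M hHM hMK g hg hgH => ?_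
  have hdiag := hasDiag_of_le hHM
  let b : Fin 3 → Fin 3 := fun i => idx (i, 0)
  have hb : ∀ l, b (idx.symm l).1 = l := fun l => by
    simp only [b]
    rw [show ((idx.symm l).1, (0 : Fin 1)) = idx.symm l from Prod.ext rfl (Subsingleton.elim _ _),
      Equiv.apply_symm_apply]
  have hstab : ∀ m ∈ G₁, IsMonom m → m ∈ Cfsg.Geo.decompositionStabilizer (stdDec F idx) := by
    intro m _ hmon
    choose π a ha hπ using fun l => exists_axis (hmon l) (gl_single_ne_zero m l)
    have hinj : Function.Injective π := fun l l' he => by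
      by_contra hne
      have h1 : (m : Mat) *ᵥ (a l' • Pi.single l 1 - a l • Pi.single l' 1) = (m : Mat) *ᵥ 0 := by
        rw [Matrix.mulVec_sub, Matrix.mulVec_smul, Matrix.mulVec_smul, hπ, hπ, he, Matrix.mulVec_zero, smul_smul,
          smul_smul, mul_comm, sub_self]
      simpa [hne, ha l'] using congrFun (gl_mulVec_injective m h1) l
    let p : Equiv.Perm (Fin 3) := Equiv.ofBijective π (Finite.injective_iff_bijective.mp hinj)
    obtain ⟨m₀, -, s, hs, hm₀⟩ := exists_mono hF p 0
    have hs0 : ∀ l, s l ≠ 0 := fun l => norm_one_ne_zero hF (hs l)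
    let e : Fin 3 ≃ Fin 3 := (Equiv.prodUnique (Fin 3) (Fin 1)).symm.trans idx
    have h0 : m₀ ∈ Cfsg.Geo.decompositionStabilizer (stdDec F idx) := by
      refine mono_stab idx p ((e.trans p).trans e.symm) (fun l => ?_) hs0 hm₀
      have : e (idx.symm l).1 = l := hb l
      simp only [Equiv.trans_apply, this]
      rfl
    have h1 : m₀⁻¹ * m ∈ Cfsg.Geo.decompositionStabilizer (stdDec F idx) := by
      refine stab_of_members fun i w hw => ?_
      have hw' : w = w (b i) • Pi.single (b i) 1 := by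
        funext l
        by_cases hl : l = b i
        · subst hl; simp
        · rw [hw l (fun e => hl (by rw [← hb l, e]))]; simp [hl]
      rw [hw', Units.val_mul, ← Matrix.mulVec_mulVec, Matrix.mulVec_smul, hπ]
      have h2 : (m₀ : Mat) *ᵥ Pi.single (b i) 1 = s (π (b i)) • Pi.single (π (b i)) 1 := by
        rw [hm₀]
        funext l
        by_cases hl : l = π (b i)
        · subst hl; simp [show p.symm (π (b i)) = b i from p.symm_apply_apply _]
        · have : p.symm l ≠ b i := fun e => hl (by rw [← e]; exact (p.apply_symm_apply l).symm)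
          simp [hl, this]
      have h3 : ((m₀⁻¹ : GL (Fin 3) F) : Mat) *ᵥ Pi.single (π (b i)) 1 = (s (π (b i)))⁻¹ • Pi.single (b i) 1 := by
        have := gl_inv_mulVec m₀ (Pi.single (b i) 1)
        rw [h2, Matrix.mulVec_smul] at this
        rw [← this, smul_smul, inv_mul_cancel₀ (hs0 _), one_smul]
      rw [Matrix.mulVec_smul, Matrix.mulVec_smul, h3]
      refine Submodule.smul_mem _ _ (Submodule.smul_mem _ _ (Submodule.smul_mem _ _ ?_))
      have := single_mem_stdDec (F := F) idx (b i) 1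
      simpa [b] using this
    simpa using Subgroup.mul_mem _ h0 h1
  have hmono : HasMono q M := fun m hm hmon => hHM ⟨hstab m hm hmon, hm⟩
  have hgm : ¬ IsMonom g := fun hh => hgH ⟨hstab g (hMK hg) hh, hMK hg⟩
  by_contra hno
  have hspread := spreading_or_top hF hq hMK hdiag hmono hno
  have hzero : ∀ g ∈ M, ∀ c d : Fin 3, ((g : GL (Fin 3) F) : Mat).mulVec (Pi.single d 1) c = 0 → IsMonom g :=
    fun g hg c d hcd => no_zero hF hq h5 hMK hdiag hspread hg hcd
  by_cases h2 : (2 : F) = 0
  · exact hgm (no_mixed_even hF h2 hq h5 hMK hdiag hmono hspread hzero hg)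
  · exact hgm (no_mixed_odd hF h2 h5 hMK hdiag hmono hspread hzero hg)

/-- The stabiliser of a decomposition into three orthogonal non-degenerate lines is maximal in `SU(3, q)`. -/
theorem su_three_monomial_maximal (hF : Fintype.card F = q ^ 2) (hq : 3 ≤ q) (h5 : q ≠ 5)
    (D : Fin 3 → Submodule F (Fin 3 → F))
    (hD : Cfsg.Geo.IsNondegenerateMDecomposition (Cfsg.hermForm 3 F q) 1 D) :
    Cfsg.Geo.IsMaximalIn G₁ (Cfsg.Geo.decompositionStabilizer D ⊓ G₁) :=
  maximal_of_std hF hD fun idx => monomial_std_maximal hF hq h5 idx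

end Cfsg.Agent.H2.SU3
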